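import Mathlib
import Cfsg.Agent.St.Steinberg

/-!
# The generic Hecke algebra of a finite Coxeter group: dimension of its centre

For real parameters `c`, the normalised Hecke algebra acts on `W → ℂ` from the left (`HL`) and
from the right (`HR`).  Its centre `HZ` is the kernel of `z ↦ (HL i z - HR i z)_i` and also the
image of the Gaschütz–Ikeda map `HG`; both ranks are lower semicontinuous in `c`, so the
dimension of the centre does not depend on `c`: it is the number of conjugacy classes of `W`.
-/

set_option autoImplicit false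

namespace Cfsg.Agent.St

open Cfsg Cfsg.Agent.Chev Cfsg.Agent.Char
open scoped ComplexConjugate

theorem isOpen_le_finrank_range {X E F : Type*} [TopologicalSpace X] [AddCommGroup E]
    [Module ℂ E] [NormedAddCommGroup F] [NormedSpace ℂ F] [FiniteDimensional ℂ F]
    (A : X → E →ₗ[ℂ] F) (hA : ∀ v, Continuous fun t => A t v) (n : ℕ) :
    IsOpen {t | n ≤ Module.finrank ℂ (LinearMap.range (A t))} := by
  have e : {t | n ≤ Module.finrank ℂ (LinearMap.range (A t))} =
      ⋃ S : {S : Finset E // S.card = n},
        (fun t => fun x : (S.1 : Set E) => A t x) ⁻¹' {f | LinearIndependent ℂ f} := by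
    ext t
    simp only [Set.mem_ofPred_eq, Set.mem_iUnion, Set.mem_preimage, Subtype.exists, exists_prop]
    rw [← LinearMap.le_rank_iff_exists_linearIndependent_finset, LinearMap.rank,
      ← Module.finrank_eq_rank, Nat.cast_le]
  rw [e]
  exact isOpen_iUnion fun S =>
    isOpen_setOfPred_linearIndependent.preimage (continuous_pi fun x : (S.1 : Set E) => hA x)

section Generic

variable {ι W : Type*} [Group W] (s : ι → W) (c : ι → ℂ)

/-- Left multiplication by a generator of the normalised Hecke algebra. -/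
noncomputable def HL (i : ι) : Module.End ℂ (W → ℂ) where
  toFun f u := f (s i * u) + c i * ind (LD s u i) * f u
  map_add' f g := by ext u; simp only [Pi.add_apply]; ring
  map_smul' a f := by ext u; simp only [Pi.smul_apply, smul_eq_mul, RingHom.id_apply]; ring

/-- Right multiplication by a generator of the normalised Hecke algebra. -/
noncomputable def HR (i : ι) : Module.End ℂ (W → ℂ) where
  toFun f u := f (u * s i) + c i * ind (RD s u i) * f u
  map_add' f g := by ext u; simp only [Pi.add_apply]; ring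
  map_smul' a f := by ext u; simp only [Pi.smul_apply, smul_eq_mul, RingHom.id_apply]; ring

theorem HL_apply (i : ι) (f : W → ℂ) (u : W) :
    HL s c i f u = f (s i * u) + c i * ind (LD s u i) * f u := rfl

theorem HR_apply (i : ι) (f : W → ℂ) (u : W) :
    HR s c i f u = f (u * s i) + c i * ind (RD s u i) * f u := rfl

/-- The basis vector of `w`. -/
noncomputable def dl (w : W) : W → ℂ := fun u => ind (u = w)

/-- Product of left multiplications along a word. -/
noncomputable def HLl (l : List ι) : Module.End ℂ (W → ℂ) := (l.map (HL s c)).prod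

/-- Product of right multiplications along a word. -/
noncomputable def HRl (l : List ι) : Module.End ℂ (W → ℂ) := (l.map (HR s c)).prod

theorem HLl_nil : HLl s c [] = 1 := rfl

theorem HRl_nil : HRl s c [] = 1 := rfl

theorem HLl_cons (i : ι) (l : List ι) : HLl s c (i :: l) = HL s c i * HLl s c l := by
  simp [HLl]

theorem HRl_cons (i : ι) (l : List ι) : HRl s c (i :: l) = HR s c i * HRl s c l := by
  simp [HRl]

theorem HLl_concat (l : List ι) (i : ι) : HLl s c (l ++ [i]) = HLl s c l * HL s c i := by
  simp [HLl]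

theorem HRl_concat (l : List ι) (i : ι) : HRl s c (l ++ [i]) = HRl s c l * HR s c i := by
  simp [HRl]

/-- The centre of the Hecke algebra. -/
noncomputable def HZ : Submodule ℂ (W → ℂ) :=
  LinearMap.ker (LinearMap.pi fun i => HL s c i - HR s c i : (W → ℂ) →ₗ[ℂ] (ι → W → ℂ))

theorem mem_HZ {z : W → ℂ} : z ∈ HZ s c ↔ ∀ i, HL s c i z = HR s c i z := by
  simp only [HZ, LinearMap.mem_ker, funext_iff, LinearMap.pi_apply, LinearMap.sub_apply,
    Pi.zero_apply, sub_eq_zero]

omit [Group W] in
theorem eq_sum_dl [Fintype W] (f : W → ℂ) : f = ∑ w, f w • dl w := by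
  ext u
  rw [Finset.sum_apply]
  simp only [dl, Pi.smul_apply, smul_eq_mul]
  rw [← sum_ind_eq_mul u f]
  exact Finset.sum_congr rfl fun w _ => by rw [mul_comm, ind_congr eq_comm]

variable {s}

namespace Cox

variable (h : Cox s)
include h

theorem HL_dl (i : ι) (w : W) :
    HL s c i (dl w) = dl (s i * w) + (c i * ind (LD s w i)) • dl w := by
  ext u
  simp only [HL_apply, dl, Pi.add_apply, Pi.smul_apply, smul_eq_mul]
  congr 1
  · refine ind_congr ⟨fun e => ?_, fun e => ?_⟩
    · rw [← e, h.inv.cancel_left]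
    · rw [e, h.inv.cancel_left]
  · by_cases e : u = w
    · rw [e]
    · rw [ind_of_not e, mul_zero, mul_zero]

theorem HR_dl (i : ι) (w : W) :
    HR s c i (dl w) = dl (w * s i) + (c i * ind (RD s w i)) • dl w := by
  ext u
  simp only [HR_apply, dl, Pi.add_apply, Pi.smul_apply, smul_eq_mul]
  congr 1
  · refine ind_congr ⟨fun e => ?_, fun e => ?_⟩
    · rw [← e, h.inv.cancel_right]
    · rw [e, h.inv.cancel_right]
  · by_cases e : u = w
    · rw [e]
    · rw [ind_of_not e, mul_zero, mul_zero]

theorem not_LD_of_reduced {i : ι} {l : List ι} (hl : Reduced s (i :: l)) :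
    ¬ LD s (wprod s l) i := by
  have h1 := h.inv.reduced_tail hl
  rw [h.not_LD_iff]
  unfold Reduced at hl h1
  rw [wprod_cons] at hl
  rw [hl, h1, List.length_cons]

theorem HLl_dl_one {l : List ι} (hl : Reduced s l) : HLl s c l (dl 1) = dl (wprod s l) := by
  induction l with
  | nil => rfl
  | cons i l ih =>
    rw [HLl_cons, Module.End.mul_apply, ih (h.inv.reduced_tail hl), h.HL_dl,
      ind_of_not (h.not_LD_of_reduced hl), mul_zero, zero_smul, add_zero, wprod_cons]

theorem HRl_dl_one {l : List ι} (hl : Reduced s l) : HRl s c l (dl 1) = dl (wprod s l)⁻¹ := by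
  induction l with
  | nil => rw [wprod_nil, inv_one]; rfl
  | cons i l ih =>
    rw [HRl_cons, Module.End.mul_apply, ih (h.inv.reduced_tail hl), h.HR_dl,
      ind_of_not (fun e => h.not_LD_of_reduced hl (h.RD_inv.1 e)), mul_zero, zero_smul, add_zero,
      wprod_cons, mul_inv_rev, h.inv.inv_eq]

theorem LD_mul_gen_iff {u : W} {i j : ι} (hne : s i * u ≠ u * s j) :
    LD s (u * s j) i ↔ LD s u i := by
  have key : ∀ v : W, ¬ RD s v j → s i * v ≠ v * s j → (LD s (v * s j) i ↔ LD s v i) := by
    intro v hv hne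
    constructor
    · intro h1
      by_contra h2
      exact hne (h.gen_mul_eq_of_up h2 hv h1)
    · intro h1
      refine h.LD_mul ?_ h1
      rw [h.not_RD_iff.1 hv, h.wlen_gen]
  by_cases hu : RD s u j
  · have h1 : ¬ RD s (u * s j) j := fun e => h.RD_mul_gen.1 e hu
    have h2 : s i * (u * s j) ≠ u * s j * s j := by
      intro e
      apply hne
      rw [← mul_assoc] at e
      exact mul_right_cancel e
    have := key _ h1 h2
    rw [h.inv.cancel_right] at this
    exact this.symm
  · exact key u hu hne

theorem RD_gen_mul_iff {u : W} {i j : ι} (hne : s i * u ≠ u * s j) :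
    RD s (s i * u) j ↔ RD s u j := by
  rw [← h.LD_inv, ← h.LD_inv, mul_inv_rev, h.inv.inv_eq]
  refine h.LD_mul_gen_iff fun e => hne ?_
  have := congrArg (·⁻¹) e
  simp only [mul_inv_rev, inv_inv, h.inv.inv_eq] at this
  exact this.symm

variable {c}

theorem HL_HR_comm (hc : ∀ i j u, s i * u = u * s j → c i = c j) (i j : ι) :
    Commute (HL s c i) (HR s c j) := by
  refine LinearMap.ext fun f => funext fun u => ?_
  simp only [Module.End.mul_apply, HL_apply, HR_apply, mul_assoc (s i)]
  by_cases e : s i * u = u * s j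
  · have e1 : LD s u i ↔ RD s u j := by unfold LD RD; rw [e]
    have e2 : LD s (u * s j) i ↔ RD s (s i * u) j := by
      rw [← e, h.LD_gen_mul, e, h.RD_mul_gen, e1]
    rw [ind_congr e1, ind_congr e2, hc i j u e, e]
  · rw [ind_congr (h.LD_mul_gen_iff e), ind_congr (h.RD_gen_mul_iff e)]
    ring

/-- A chosen reduced word. -/
noncomputable def rw (w : W) : List ι := (h.inv.exists_reduced' w).choose

theorem reduced_rw (w : W) : Reduced s (h.rw w) := (h.inv.exists_reduced' w).choose_spec.1

theorem wprod_rw (w : W) : wprod s (h.rw w) = w := (h.inv.exists_reduced' w).choose_spec.2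

theorem rw_one : h.rw 1 = [] := by
  have := h.reduced_rw 1
  unfold Reduced at this
  rw [h.wprod_rw, wlen_one] at this
  exact List.length_eq_zero_iff.1 this.symm

theorem HLl_HR_comm (hc : ∀ i j u, s i * u = u * s j → c i = c j) (l : List ι) (j : ι) :
    Commute (HLl s c l) (HR s c j) :=
  Commute.list_prod_left _ _ fun x hx => by
    obtain ⟨i, -, rfl⟩ := List.mem_map.1 hx
    exact h.HL_HR_comm hc i j

theorem HRl_HL_comm (hc : ∀ i j u, s i * u = u * s j → c i = c j) (l : List ι) (j : ι) :
    Commute (HRl s c l) (HL s c j) :=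
  Commute.list_prod_left _ _ fun x hx => by
    obtain ⟨i, -, rfl⟩ := List.mem_map.1 hx
    exact (h.HL_HR_comm hc j i).symm

variable [Fintype W]

theorem ext_of_comm_HR {A B : Module.End ℂ (W → ℂ)} (hA : ∀ j, Commute A (HR s c j))
    (hB : ∀ j, Commute B (HR s c j)) (e : A (dl 1) = B (dl 1)) : A = B := by
  have key : ∀ {A : Module.End ℂ (W → ℂ)}, (∀ j, Commute A (HR s c j)) → ∀ w,
      A (dl w) = HRl s c (h.rw w⁻¹) (A (dl 1)) := by
    intro A hA w
    have : Commute A (HRl s c (h.rw w⁻¹)) := Commute.list_prod_right _ _ fun x hx => by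
      obtain ⟨i, -, rfl⟩ := List.mem_map.1 hx
      exact hA i
    rw [← Module.End.mul_apply, ← this.eq, Module.End.mul_apply, h.HRl_dl_one c (h.reduced_rw _),
      h.wprod_rw, inv_inv]
  refine LinearMap.ext fun f => ?_
  rw [eq_sum_dl f, map_sum, map_sum]
  refine Finset.sum_congr rfl fun w _ => ?_
  rw [map_smul, map_smul, key hA, key hB, e]

theorem ext_of_comm_HL {A B : Module.End ℂ (W → ℂ)} (hA : ∀ j, Commute A (HL s c j))
    (hB : ∀ j, Commute B (HL s c j)) (e : A (dl 1) = B (dl 1)) : A = B := by
  have key : ∀ {A : Module.End ℂ (W → ℂ)}, (∀ j, Commute A (HL s c j)) → ∀ w,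
      A (dl w) = HLl s c (h.rw w) (A (dl 1)) := by
    intro A hA w
    have : Commute A (HLl s c (h.rw w)) := Commute.list_prod_right _ _ fun x hx => by
      obtain ⟨i, -, rfl⟩ := List.mem_map.1 hx
      exact hA i
    rw [← Module.End.mul_apply, ← this.eq, Module.End.mul_apply, h.HLl_dl_one c (h.reduced_rw _),
      h.wprod_rw]
  refine LinearMap.ext fun f => ?_
  rw [eq_sum_dl f, map_sum, map_sum]
  refine Finset.sum_congr rfl fun w _ => ?_
  rw [map_smul, map_smul, key hA, key hB, e]

theorem HL_mul_HLl (hc : ∀ i j u, s i * u = u * s j → c i = c j) (i : ι) (w : W) :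
    HL s c i * HLl s c (h.rw w) =
      HLl s c (h.rw (s i * w)) + (c i * ind (LD s w i)) • HLl s c (h.rw w) := by
  refine h.ext_of_comm_HR (fun j => (h.HL_HR_comm hc i j).mul_left (h.HLl_HR_comm hc _ j))
    (fun j => (h.HLl_HR_comm hc _ j).add_left ((h.HLl_HR_comm hc _ j).smul_left _)) ?_
  rw [Module.End.mul_apply, LinearMap.add_apply, LinearMap.smul_apply,
    h.HLl_dl_one c (h.reduced_rw _), h.HLl_dl_one c (h.reduced_rw _), h.wprod_rw, h.wprod_rw,
    h.HL_dl]

theorem HR_mul_HRl (hc : ∀ i j u, s i * u = u * s j → c i = c j) (i : ι) (w : W) :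
    HR s c i * HRl s c (h.rw w) =
      HRl s c (h.rw (s i * w)) + (c i * ind (LD s w i)) • HRl s c (h.rw w) := by
  refine h.ext_of_comm_HL (fun j => (h.HL_HR_comm hc j i).symm.mul_left (h.HRl_HL_comm hc _ j))
    (fun j => (h.HRl_HL_comm hc _ j).add_left ((h.HRl_HL_comm hc _ j).smul_left _)) ?_
  rw [Module.End.mul_apply, LinearMap.add_apply, LinearMap.smul_apply,
    h.HRl_dl_one c (h.reduced_rw _), h.HRl_dl_one c (h.reduced_rw _), h.wprod_rw, h.wprod_rw,
    h.HR_dl, mul_inv_rev, h.inv.inv_eq, ind_congr h.RD_inv]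

variable (c) in
/-- The Gaschütz–Ikeda map `a ↦ ∑_w T_w a T_{w⁻¹}`. -/
noncomputable def HG : Module.End ℂ (W → ℂ) := ∑ w, HLl s c (h.rw w) * HRl s c (h.rw w)

theorem HL_mul_HG (hc : ∀ i j u, s i * u = u * s j → c i = c j) (i : ι) :
    HL s c i * h.HG c = HR s c i * h.HG c := by
  unfold HG
  rw [Finset.mul_sum, Finset.mul_sum]
  have e1 : ∀ w, HL s c i * (HLl s c (h.rw w) * HRl s c (h.rw w)) =
      HLl s c (h.rw (s i * w)) * HRl s c (h.rw w) +
        (c i * ind (LD s w i)) • (HLl s c (h.rw w) * HRl s c (h.rw w)) := by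
    intro w
    rw [← mul_assoc, h.HL_mul_HLl hc, add_mul, smul_mul_assoc]
  have e2 : ∀ w, HR s c i * (HLl s c (h.rw w) * HRl s c (h.rw w)) =
      HLl s c (h.rw w) * HRl s c (h.rw (s i * w)) +
        (c i * ind (LD s w i)) • (HLl s c (h.rw w) * HRl s c (h.rw w)) := by
    intro w
    rw [← mul_assoc, ← (h.HLl_HR_comm hc _ i).eq, mul_assoc, h.HR_mul_HRl hc, mul_add,
      mul_smul_comm]
  simp only [e1, e2, Finset.sum_add_distrib]
  congr 1
  refine (Fintype.sum_equiv (Equiv.mulLeft (s i)) _ _ fun w => ?_)
  rw [Equiv.coe_mulLeft, h.inv.cancel_left]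

theorem range_HG_le (hc : ∀ i j u, s i * u = u * s j → c i = c j) :
    LinearMap.range (h.HG c) ≤ HZ s c := by
  rintro _ ⟨a, rfl⟩
  rw [mem_HZ]
  intro i
  rw [← Module.End.mul_apply, h.HL_mul_HG hc, Module.End.mul_apply]

omit [Fintype W] in
theorem HRl_of_mem_HZ (hc : ∀ i j u, s i * u = u * s j → c i = c j) {z : W → ℂ}
    (hz : z ∈ HZ s c) (l : List ι) : HRl s c l z = HLl s c l.reverse z := by
  induction l with
  | nil => rfl
  | cons i l ih =>
    rw [HRl_cons, Module.End.mul_apply, ih, List.reverse_cons, HLl_concat, Module.End.mul_apply,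
      (mem_HZ s c).1 hz i, ← Module.End.mul_apply, ← (h.HLl_HR_comm hc _ i).eq,
      Module.End.mul_apply]

theorem sum_conj_HL (hr : ∀ i, conj (c i) = c i) (i : ι) (f g : W → ℂ) :
    ∑ u, conj (f u) * HL s c i g u = ∑ u, conj (HL s c i f u) * g u := by
  simp only [HL_apply, map_add, map_mul, hr, conj_ind, mul_add, add_mul, Finset.sum_add_distrib]
  congr 1
  · refine (Fintype.sum_equiv (Equiv.mulLeft (s i)) _ _ fun w => ?_)
    rw [Equiv.coe_mulLeft, h.inv.cancel_left]
  · exact Finset.sum_congr rfl fun u _ => by ring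

theorem sum_conj_HLl (hr : ∀ i, conj (c i) = c i) (l : List ι) (f g : W → ℂ) :
    ∑ u, conj (f u) * HLl s c l g u = ∑ u, conj (HLl s c l.reverse f u) * g u := by
  induction l generalizing f with
  | nil => rfl
  | cons i l ih =>
    rw [HLl_cons, Module.End.mul_apply, h.sum_conj_HL hr, ih, List.reverse_cons, HLl_concat,
      Module.End.mul_apply]

theorem eq_zero_of_HG (hc : ∀ i j u, s i * u = u * s j → c i = c j)
    (hr : ∀ i, conj (c i) = c i) {z : W → ℂ} (hz : z ∈ HZ s c) (h0 : h.HG c z = 0) : z = 0 := by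
  have e : ∑ u, conj (z u) * h.HG c z u =
      ((∑ w, ∑ u, ‖HLl s c (h.rw w).reverse z u‖ ^ 2 : ℝ) : ℂ) := by
    unfold HG
    simp only [LinearMap.sum_apply, Finset.sum_apply, Finset.mul_sum, Module.End.mul_apply]
    rw [Finset.sum_comm]
    push_cast
    refine Finset.sum_congr rfl fun w _ => ?_
    rw [h.sum_conj_HLl hr, h.HRl_of_mem_HZ hc hz]
    exact Finset.sum_congr rfl fun u _ => by rw [Complex.conj_mul']
  rw [h0] at e
  simp only [Pi.zero_apply, mul_zero, Finset.sum_const_zero] at e
  have e' := (Finset.sum_eq_zero_iff_of_nonneg fun w _ =>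
    Finset.sum_nonneg fun u _ => by positivity).1 (Complex.ofReal_eq_zero.1 e.symm) 1
    (Finset.mem_univ _)
  rw [h.rw_one] at e'
  ext u
  have := (Finset.sum_eq_zero_iff_of_nonneg fun u _ => by positivity).1 e' u (Finset.mem_univ _)
  simpa [HLl_nil] using this

theorem finrank_range_HG (hc : ∀ i j u, s i * u = u * s j → c i = c j)
    (hr : ∀ i, conj (c i) = c i) :
    Module.finrank ℂ (LinearMap.range (h.HG c)) = Module.finrank ℂ (HZ s c) := by
  refine le_antisymm (Submodule.finrank_mono (h.range_HG_le hc)) ?_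
  have hi : Function.Injective ((h.HG c).domRestrict (HZ s c)) := by
    rw [← LinearMap.ker_eq_bot, LinearMap.ker_eq_bot']
    intro z hz
    exact Subtype.ext (h.eq_zero_of_HG hc hr z.2 hz)
  rw [← LinearMap.finrank_range_of_inj hi]
  refine Submodule.finrank_mono ?_
  rintro _ ⟨z, rfl⟩
  exact ⟨z, rfl⟩

omit h [Fintype W] in
theorem continuous_HL {X : Type*} [TopologicalSpace X] {c : X → ι → ℂ}
    (hc : ∀ i, Continuous fun t => c t i) {g : X → W → ℂ} (hg : Continuous g) (i : ι) :
    Continuous fun t => HL s (c t) i (g t) := by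
  refine continuous_pi fun u => ?_
  simp only [HL_apply]
  have := hc i
  fun_prop

omit h [Fintype W] in
theorem continuous_HR {X : Type*} [TopologicalSpace X] {c : X → ι → ℂ}
    (hc : ∀ i, Continuous fun t => c t i) {g : X → W → ℂ} (hg : Continuous g) (i : ι) :
    Continuous fun t => HR s (c t) i (g t) := by
  refine continuous_pi fun u => ?_
  simp only [HR_apply]
  have := hc i
  fun_prop

omit h [Fintype W] in
theorem continuous_HLl {X : Type*} [TopologicalSpace X] {c : X → ι → ℂ}
    (hc : ∀ i, Continuous fun t => c t i) {g : X → W → ℂ} (hg : Continuous g) (l : List ι) :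
    Continuous fun t => HLl s (c t) l (g t) := by
  induction l with
  | nil => exact hg
  | cons i l ih =>
    simp only [HLl_cons, Module.End.mul_apply]
    exact continuous_HL hc ih i

omit h [Fintype W] in
theorem continuous_HRl {X : Type*} [TopologicalSpace X] {c : X → ι → ℂ}
    (hc : ∀ i, Continuous fun t => c t i) {g : X → W → ℂ} (hg : Continuous g) (l : List ι) :
    Continuous fun t => HRl s (c t) l (g t) := by
  induction l with
  | nil => exact hg
  | cons i l ih =>
    simp only [HRl_cons, Module.End.mul_apply]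
    exact continuous_HR hc ih i

omit [Fintype W] in
theorem HZ_zero : HZ s (fun _ => 0) = classFunSubmodule W := by
  ext f
  rw [mem_HZ, mem_classFunSubmodule]
  simp only [funext_iff, HL_apply, HR_apply, zero_mul, add_zero]
  constructor
  · intro hf g x
    obtain ⟨l, rfl⟩ := h.inv.exists_word x
    induction l with
    | nil => simp
    | cons i l ih =>
      rw [wprod_cons, mul_inv_rev, mul_assoc, mul_assoc, hf, h.inv.inv_eq, ← ih]
      congr 1
      simp only [mul_assoc, h.sq, mul_one]
  · intro hf i u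
    rw [← hf (u * s i) (s i), ← mul_assoc, mul_inv_cancel_right]

/-- The centre of the Hecke algebra has dimension the number of conjugacy classes. -/
theorem finrank_HZ [Finite ι] (c : ι → ℝ) (hc : ∀ i j u, s i * u = u * s j → c i = c j) :
    Module.finrank ℂ (HZ s fun i => (c i : ℂ)) = Nat.card (ConjClasses W) := by
  have := Fintype.ofFinite ι
  set ct : ℝ → ι → ℂ := fun t i => ((t * c i : ℝ) : ℂ) with hct
  have hcont : ∀ i, Continuous fun t => ct t i := fun i => by simp only [hct]; fun_prop
  have hc' : ∀ t i j u, s i * u = u * s j → ct t i = ct t j := fun t i j u e => by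
    simp only [hct, hc i j u e]
  have hr : ∀ t i, conj (ct t i) = ct t i := fun t i => Complex.conj_ofReal _
  have hloc : IsLocallyConstant fun t => Module.finrank ℂ (HZ s (ct t)) := by
    refine (IsLocallyConstant.iff_isOpen_fiber).2 fun n => ?_
    have o1 := isOpen_le_finrank_range (fun t => h.HG (ct t)) (fun v => by
      unfold HG
      simp only [LinearMap.sum_apply, Module.End.mul_apply]
      exact continuous_finsetSum _ fun w _ =>
        continuous_HLl hcont (continuous_HRl hcont continuous_const _) _) n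
    have o2 := isOpen_le_finrank_range
      (fun t => (LinearMap.pi fun i => HL s (ct t) i - HR s (ct t) i :
        (W → ℂ) →ₗ[ℂ] (ι → W → ℂ))) (fun v => continuous_pi fun i => by
          simp only [LinearMap.pi_apply, LinearMap.sub_apply]
          exact (continuous_HL hcont continuous_const i).sub
            (continuous_HR hcont continuous_const i)) (Module.finrank ℂ (W → ℂ) - n)
    convert o1.inter o2 using 1
    ext t
    have e := LinearMap.finrank_range_add_finrank_ker
      (LinearMap.pi fun i => HL s (ct t) i - HR s (ct t) i : (W → ℂ) →ₗ[ℂ] (ι → W → ℂ))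
    simp only [Set.mem_preimage, Set.mem_singleton_iff, Set.mem_inter_iff, Set.mem_ofPred_eq]
    rw [h.finrank_range_HG (hc' t) (hr t)]
    unfold HZ
    omega
  have e : Module.finrank ℂ (HZ s (ct 1)) = Module.finrank ℂ (HZ s (ct 0)) :=
    hloc.apply_eq_of_preconnectedSpace 1 0
  have e1 : ct 1 = fun i => (c i : ℂ) := by ext i; simp [hct]
  have e0 : ct 0 = fun _ => 0 := by ext i; simp [hct]
  rw [e1, e0] at e
  have := Fintype.ofFinite (ConjClasses W)
  rw [e, h.HZ_zero, (classFunEquiv W).finrank_eq, Module.finrank_fintype_fun_eq_card,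
    Nat.card_eq_fintype_card]

end Cox

end Generic

end Cfsg.Agent.St
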