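import Mathlib
import Cfsg.Agent.St.Hecke
import Cfsg.Agent.Block.Idem

/-!
# The constituents of the permutation character on the cosets of a Borel subgroup

The centre of the corner algebra `e ℂG e` has a basis indexed by the irreducible characters not
killing the idempotent `e`.  For `e` the averaging idempotent of the Borel subgroup of a Tits
system the corner algebra is the Hecke algebra, so `1_B^G` has as many irreducible constituents
as the Weyl group has conjugacy classes.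
-/

set_option autoImplicit false

namespace Cfsg.Agent.St

open Cfsg Cfsg.Agent.Chev Cfsg.Agent.Char Cfsg.Agent.Block MonoidAlgebra
open scoped ComplexConjugate

section Corner

variable {G : Type*} [Group G]

/-- The centre of the corner algebra `e ℂG e`. -/
def cornerZ (e : MonoidAlgebra ℂ G) : Submodule ℂ (MonoidAlgebra ℂ G) where
  carrier := {z | e * z = z ∧ z * e = z ∧ ∀ a, e * a = a → a * e = a → a * z = z * a}
  zero_mem' := ⟨mul_zero _, zero_mul _, fun a _ _ => by rw [mul_zero, zero_mul]⟩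
  add_mem' := by
    rintro x y ⟨h1, h2, h3⟩ ⟨k1, k2, k3⟩
    exact ⟨by rw [mul_add, h1, k1], by rw [add_mul, h2, k2],
      fun a ha ha' => by rw [mul_add, add_mul, h3 a ha ha', k3 a ha ha']⟩
  smul_mem' := by
    rintro c x ⟨h1, h2, h3⟩
    exact ⟨by rw [mul_smul_comm, h1], by rw [smul_mul_assoc, h2],
      fun a ha ha' => by rw [mul_smul_comm, smul_mul_assoc, h3 a ha ha']⟩

theorem mem_cornerZ {e z : MonoidAlgebra ℂ G} : z ∈ cornerZ e ↔
    e * z = z ∧ z * e = z ∧ ∀ a, e * a = a → a * e = a → a * z = z * a := Iff.rfl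

variable [Fintype G]

theorem mul_eIrr_eq_zero {e : MonoidAlgebra ℂ G} (he : e * e = e) {χ : IrrCharacter G}
    (h0 : ev (χ : G → ℂ) e = 0) : e * eIrr (χ : G → ℂ) = 0 := by
  classical
  have hz := eIrr_mem_ZA χ.2.isClassFunction
  refine eq_zero_of_ev_mul_single fun ψ g => ?_
  rw [← ZA_comm hz e, mul_assoc, ev_central_mul ψ.2 hz, om_eIrr]
  split_ifs with h
  · subst h
    obtain ⟨n, ρ, -, hρ⟩ := ψ.2
    rw [← hρ] at h0 ⊢
    rw [ev_character] at h0 ⊢
    have hi : IsIdempotentElem (ρ.asAlgebraHom e) := by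
      unfold IsIdempotentElem
      rw [← map_mul, he]
    rw [map_mul, (LinearMap.IsIdempotentElem.trace_eq_zero_iff hi).1 h0, zero_mul, map_zero, mul_zero]
  · rw [zero_mul]

theorem sum_conj_mem_ZA (a : MonoidAlgebra ℂ G) :
    ∑ g : G, single g (1 : ℂ) * a * single g⁻¹ 1 ∈ ZA ℂ G := by
  rw [mem_ZA_iff]
  intro x h
  simp only [coeff_sum_apply, coeff_conj]
  refine (Fintype.sum_equiv (Equiv.mulLeft h) _ _ fun g => ?_).symm
  congr 1
  simp only [Equiv.coe_mulLeft]
  group

theorem finrank_cornerZ {e : MonoidAlgebra ℂ G} (he : e * e = e) :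
    Module.finrank ℂ (cornerZ e) = Nat.card {χ : IrrCharacter G // ev (χ : G → ℂ) e ≠ 0} := by
  classical
  set v : {χ : IrrCharacter G // ev (χ : G → ℂ) e ≠ 0} → MonoidAlgebra ℂ G :=
    fun χ => e * eIrr (χ.1 : G → ℂ) with hv
  have hz : ∀ χ : IrrCharacter G, eIrr (χ : G → ℂ) ∈ ZA ℂ G :=
    fun χ => eIrr_mem_ZA χ.2.isClassFunction
  have hli : LinearIndependent ℂ v := by
    rw [Fintype.linearIndependent_iff]
    intro c hc ψ
    have := congrArg (ev (ψ.1 : G → ℂ)) hc
    rw [map_sum, map_zero, Finset.sum_eq_single ψ] at this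
    · rw [map_smul, hv, ev_mul_central ψ.1.2 (hz _), om_eIrr_self ψ.1.2, mul_one,
        smul_eq_mul] at this
      exact (mul_eq_zero.1 this).resolve_right ψ.2
    · intro χ _ hne
      rw [map_smul, hv, ev_mul_central ψ.1.2 (hz _), om_eIrr,
        if_neg fun h => hne (Subtype.ext h.symm), mul_zero, smul_zero]
    · simp
  have hsp : Submodule.span ℂ (Set.range v) = cornerZ e := by
    apply le_antisymm
    · rw [Submodule.span_le]
      rintro _ ⟨χ, rfl⟩
      refine ⟨by rw [hv, ← mul_assoc, he], ?_, fun a ha ha' => ?_⟩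
      · rw [hv, mul_assoc, ZA_comm (hz _) e, ← mul_assoc, he]
      · rw [hv, ← mul_assoc, ha', mul_assoc, ZA_comm (hz _) a, ← mul_assoc, ha]
    · rintro z ⟨h1, h2, h3⟩
      set E := ∑ g : G, single g (1 : ℂ) * e * single g⁻¹ 1 with hE
      set z' := ∑ g : G, single g (1 : ℂ) * z * single g⁻¹ 1 with hz'
      have hEz : E ∈ ZA ℂ G := sum_conj_mem_ZA e
      have hz'z : z' ∈ ZA ℂ G := sum_conj_mem_ZA z
      have key : z * E = e * z' := by
        calc z * E = z * E * e := by rw [mul_assoc, ZA_comm hEz e, ← mul_assoc, h2]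
          _ = e * z' * e := by
            rw [hE, hz', Finset.mul_sum, Finset.mul_sum, Finset.sum_mul, Finset.sum_mul]
            refine Finset.sum_congr rfl fun g _ => ?_
            have := h3 (e * single g 1 * e) (by rw [← mul_assoc, ← mul_assoc, he])
              (by rw [mul_assoc, he])
            calc z * (single g 1 * e * single g⁻¹ 1) * e
                = z * (e * single g 1 * e) * single g⁻¹ 1 * e := by
                  simp only [← mul_assoc, h2]
              _ = e * single g 1 * (e * z) * single g⁻¹ 1 * e := by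
                  rw [← this]; simp only [mul_assoc]
              _ = _ := by rw [h1]; simp only [mul_assoc]
          _ = e * z' := by rw [mul_assoc, ZA_comm hz'z e, ← mul_assoc, he]
      have hone : (1 : MonoidAlgebra ℂ G) = ∑ χ : IrrCharacter G, eIrr (χ : G → ℂ) := by
        rw [ZA_eq_sum_eIrr (one_mem (ZA ℂ G))]
        exact Finset.sum_congr rfl fun χ _ => by rw [om_one χ.2.one_ne_zero, one_smul]
      rw [← mul_one z, hone, Finset.mul_sum]
      refine Submodule.sum_mem _ fun χ _ => ?_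
      by_cases h0 : ev (χ : G → ℂ) e = 0
      · rw [← h2, mul_assoc, mul_eIrr_eq_zero he h0, mul_zero]
        exact Submodule.zero_mem _
      · have hE0 : om (χ : G → ℂ) E ≠ 0 := by
          rw [om_apply, hE, map_sum]
          have : ∀ g : G, ev (χ : G → ℂ) (single g (1 : ℂ) * e * single g⁻¹ 1) =
              ev (χ : G → ℂ) e := fun g => by
            rw [ev_mul_comm χ.2.isClassFunction, ← mul_assoc, single_one_mul_single_one,
              inv_mul_cancel, ← one_def, one_mul]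
          simp only [this, Finset.sum_const, nsmul_eq_mul]
          exact div_ne_zero (mul_ne_zero (Nat.cast_ne_zero.2 Fintype.card_pos.ne') h0)
            χ.2.one_ne_zero
        have k := congrArg (· * eIrr (χ : G → ℂ)) key
        simp only [mul_assoc, ZA_mul_eIrr χ.2 hEz, ZA_mul_eIrr χ.2 hz'z, mul_smul_comm] at k
        rw [(eq_inv_smul_iff₀ hE0).2 k]
        exact Submodule.smul_mem _ _ (Submodule.smul_mem _ _
          (Submodule.subset_span ⟨⟨χ, h0⟩, rfl⟩))
  rw [← hsp, finrank_span_eq_card hli, Nat.card_eq_fintype_card]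

/-- The averaging idempotent of a subgroup. -/
noncomputable def avgE (B : Subgroup G) : MonoidAlgebra ℂ G :=
  ofFun fun g => (Nat.card B : ℂ)⁻¹ * ind (g ∈ B)

theorem card_ne_zero' (B : Subgroup G) : (Nat.card B : ℂ) ≠ 0 :=
  Nat.cast_ne_zero.2 Nat.card_pos.ne'

theorem avgE_mul_eq_iff {B : Subgroup G} {a : MonoidAlgebra ℂ G} :
    avgE B * a = a ↔ ∀ b ∈ B, ∀ g, a.coeff (b * g) = a.coeff g := by
  constructor
  · intro h b hb g
    rw [← h, coeff_mul_left, coeff_mul_left]
    refine (Fintype.sum_equiv (Equiv.mulLeft b) _ _ fun x => ?_).symm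
    simp only [avgE, coeff_ofFun, Equiv.coe_mulLeft, B.mul_mem_cancel_left hb]
    congr 2
    group
  · intro h
    refine ga_ext fun g => ?_
    rw [coeff_mul_left]
    have : ∀ x, (avgE B).coeff x * a.coeff (x⁻¹ * g) =
        (Nat.card B : ℂ)⁻¹ * a.coeff g * ind (x ∈ B) := fun x => by
      rw [avgE, coeff_ofFun, mul_assoc, ind_mul_congr fun hx => h _ (B.inv_mem hx) g]
      ring
    simp only [this]
    rw [← Finset.mul_sum, sum_ind_mem]
    have := card_ne_zero' B
    field_simp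

theorem mul_avgE_eq_iff {B : Subgroup G} {a : MonoidAlgebra ℂ G} :
    a * avgE B = a ↔ ∀ b ∈ B, ∀ g, a.coeff (g * b) = a.coeff g := by
  constructor
  · intro h b hb g
    rw [← h, coeff_mul_right, coeff_mul_right]
    refine (Fintype.sum_equiv (Equiv.mulRight b) _ _ fun x => ?_).symm
    simp only [avgE, coeff_ofFun, Equiv.coe_mulRight, B.mul_mem_cancel_right hb]
    congr 2
    group
  · intro h
    refine ga_ext fun g => ?_
    rw [coeff_mul_right]
    have : ∀ x, a.coeff (g * x⁻¹) * (avgE B).coeff x =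
        (Nat.card B : ℂ)⁻¹ * a.coeff g * ind (x ∈ B) := fun x => by
      rw [avgE, coeff_ofFun, mul_left_comm, mul_comm (a.coeff _),
        ind_mul_congr fun hx => h _ (B.inv_mem hx) g]
      ring
    simp only [this]
    rw [← Finset.mul_sum, sum_ind_mem]
    have := card_ne_zero' B
    field_simp

theorem avgE_mul_self (B : Subgroup G) : avgE B * avgE B = avgE B :=
  avgE_mul_eq_iff.2 fun b hb g => by
    simp only [avgE, coeff_ofFun, B.mul_mem_cancel_left hb]

theorem ev_avgE_ne_zero_iff (B : Subgroup G) (χ : IrrCharacter G) :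
    ev (χ : G → ℂ) (avgE B) ≠ 0 ↔
      ∃ φ : G → ℂ, IsCharacter G φ ∧ fixedPointCharacter B = (χ : G → ℂ) + φ := by
  classical
  have e : ev (χ : G → ℂ) (avgE B) = classInner (χ : G → ℂ) (fixedPointCharacter B) := by
    rw [fixedPointCharacter_eq_indFun, classInner_indFun_right _ _ χ.2.isClassFunction, avgE,
      ev_ofFun, classInner]
    simp only [map_one, mul_one]
    rw [sum_subgroup, Finset.mul_sum]
    exact Finset.sum_congr rfl fun g _ => mul_assoc _ _ _
  rw [e, ← classInner_conj_symm, map_ne_zero]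
  constructor
  · intro h
    exact ⟨_, (isCharacter_fixedPointCharacter B).sub_irr χ.2 h, by ring⟩
  · rintro ⟨φ, hφ, h⟩
    obtain ⟨m, hm⟩ := hφ.exists_nat_inner χ.2.isCharacter
    rw [h, classInner_add_left, χ.2.inner_self, hm]
    exact_mod_cast (by omega : 1 + m ≠ 0)

end Corner

namespace Tits

variable {G ι W : Type*} [Group G] [Group W] (T : Tits G ι W) [Fintype G]

/-- The size of a Bruhat cell. -/
noncomputable def cn (u : W) : ℕ := Nat.card {g // T.wt g = u}

theorem sum_ind_wt (u : W) : ∑ g, ind (T.wt g = u) = T.cn u := sum_ind _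

theorem cn_pos (u : W) : 0 < T.cn u := by
  obtain ⟨g, hg⟩ := T.wt_surjective u
  have : Nonempty {g // T.wt g = u} := ⟨⟨g, hg⟩⟩
  exact Nat.card_pos

omit [Fintype G] in
theorem cn_one : T.cn 1 = Nat.card T.B :=
  Nat.card_congr (Equiv.subtypeEquivRight fun _ => T.wt_eq_one)

omit [Fintype G] in
theorem cn_inv (u : W) : T.cn u⁻¹ = T.cn u :=
  Nat.card_congr ((Equiv.inv G).subtypeEquiv fun g => by
    rw [Equiv.inv_apply, T.wt_inv, inv_eq_iff_eq_inv])

theorem sum_cell_left_up {i : ι} {g : G} (hg : ¬ LD T.s (T.wt g) i) (F : W → ℂ) :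
    ∑ x, ind (T.wt x = T.s i) * F (T.wt (x⁻¹ * g)) = T.cn (T.s i) * F (T.s i * T.wt g) := by
  rw [← T.sum_ind_wt, Finset.sum_mul]
  refine Finset.sum_congr rfl fun x _ => ind_mul_congr fun hx => ?_
  rw [T.gen_mul_up (by rw [T.wt_inv, hx, T.cox.inv.inv_eq]) hg]

theorem sum_cell_left_down {i : ι} {g : G} (hg : LD T.s (T.wt g) i) (F : W → ℂ) :
    ∑ x, ind (T.wt x = T.s i) * F (T.wt (x⁻¹ * g)) =
      Nat.card T.B * F (T.s i * T.wt g) + (T.cn (T.s i) - Nat.card T.B) * F (T.wt g) := by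
  obtain ⟨x₀, y₀, hx₀, hy₀, e⟩ := T.exists_mul_eq (g := g) (u := T.s i) (v := T.s i * T.wt g)
    (T.cox.inv.cancel_left _ _).symm
  have hup : ¬ LD T.s (T.wt y₀) i := by rw [hy₀, T.cox.LD_gen_mul]; exact not_not.2 hg
  have key : ∀ x, ind (T.wt x = T.s i) * F (T.wt (x⁻¹ * g)) =
      ind (T.wt x = T.s i) * F (T.wt g) +
        ind (x⁻¹ * x₀ ∈ T.B) * (F (T.s i * T.wt g) - F (T.wt g)) := by
    intro x
    by_cases hB : x⁻¹ * x₀ ∈ T.B
    · have hx : T.wt x = T.s i := by
        rw [← hx₀, ← T.wt_mul_B x hB, mul_inv_cancel_left]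
      have : T.wt (x⁻¹ * g) = T.s i * T.wt g := by
        rw [← hy₀, e, ← mul_assoc, T.wt_B_mul hB]
      rw [ind_of hx, ind_of hB, this]
      ring
    · rw [ind_of_not hB, zero_mul, add_zero]
      refine ind_mul_congr fun hx => ?_
      have hx' : T.wt x⁻¹ = T.s i := by rw [T.wt_inv, hx, T.cox.inv.inv_eq]
      have h1 : T.wt (x⁻¹ * x₀) = T.s i := by
        rcases T.gen_mul hx' x₀ with h | h
        · rw [hx₀, T.cox.sq] at h
          exact absurd (T.wt_eq_one.1 h) hB
        · rw [h, hx₀]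
      have : T.wt (x⁻¹ * g) = T.wt g := by
        conv_lhs => rw [e, ← mul_assoc, T.gen_mul_up h1 hup, hy₀, T.cox.inv.cancel_left]
      rw [this]
  simp only [key, Finset.sum_add_distrib, ← Finset.sum_mul]
  have : ∑ x, ind (x⁻¹ * x₀ ∈ T.B) = Nat.card T.B := by
    rw [← sum_ind_mem]
    exact Fintype.sum_equiv ((Equiv.inv G).trans (Equiv.mulRight x₀)) _ _ fun _ => rfl
  rw [T.sum_ind_wt, this]
  ring

theorem sum_cell_right_eq (i : ι) (g : G) (F : W → ℂ) :
    ∑ x, ind (T.wt x = T.s i) * F (T.wt (g * x⁻¹)) =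
      ∑ x, ind (T.wt x = T.s i) * F (T.wt (x⁻¹ * g⁻¹))⁻¹ := by
  refine Fintype.sum_equiv (Equiv.inv G) _ _ fun x => ?_
  rw [Equiv.inv_apply, ← T.wt_inv, inv_inv, mul_inv_rev, inv_inv, T.wt_inv x,
    ind_congr (inv_eq_iff_eq_inv (a := T.wt x) (b := T.s i)), T.cox.inv.inv_eq]

theorem sum_cell_right_up {i : ι} {g : G} (hg : ¬ RD T.s (T.wt g) i) (F : W → ℂ) :
    ∑ x, ind (T.wt x = T.s i) * F (T.wt (g * x⁻¹)) = T.cn (T.s i) * F (T.wt g * T.s i) := by
  rw [T.sum_cell_right_eq, T.sum_cell_left_up (by rwa [T.wt_inv, T.cox.LD_inv]) fun u => F u⁻¹,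
    T.wt_inv, mul_inv_rev, inv_inv, T.cox.inv.inv_eq]

theorem sum_cell_right_down {i : ι} {g : G} (hg : RD T.s (T.wt g) i) (F : W → ℂ) :
    ∑ x, ind (T.wt x = T.s i) * F (T.wt (g * x⁻¹)) =
      Nat.card T.B * F (T.wt g * T.s i) + (T.cn (T.s i) - Nat.card T.B) * F (T.wt g) := by
  rw [T.sum_cell_right_eq, T.sum_cell_left_down (by rwa [T.wt_inv, T.cox.LD_inv]) fun u => F u⁻¹,
    T.wt_inv, mul_inv_rev, inv_inv, T.cox.inv.inv_eq]

theorem cn_gen_mul {i : ι} {w : W} (hw : ¬ LD T.s w i) :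
    T.cn (T.s i * w) * Nat.card T.B = T.cn (T.s i) * T.cn w := by
  have key : ∀ g, ∑ x, ind (T.wt x = T.s i) * ind (T.wt (x⁻¹ * g) = w) =
      ind (T.wt g = T.s i * w) * Nat.card T.B := by
    intro g
    have e : T.s i * T.wt g = w ↔ T.wt g = T.s i * w :=
      ⟨fun e => by rw [← e, T.cox.inv.cancel_left], fun e => by rw [e, T.cox.inv.cancel_left]⟩
    by_cases hg : LD T.s (T.wt g) i
    · rw [T.sum_cell_left_down hg fun u => ind (u = w), ind_congr e,
        ind_of_not (P := T.wt g = w) fun e => hw (e ▸ hg)]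
      ring
    · have : ¬ T.wt g = T.s i * w := fun e => hg (by rw [e, T.cox.LD_gen_mul]; exact hw)
      rw [T.sum_cell_left_up hg fun u => ind (u = w), ind_congr e, ind_of_not this]
      ring
  have h1 := Finset.sum_congr (rfl : Finset.univ = Finset.univ) fun g _ => key g
  rw [← Finset.sum_mul, T.sum_ind_wt, Finset.sum_comm] at h1
  have h2 : ∀ x : G, ∑ g, ind (T.wt x = T.s i) * ind (T.wt (x⁻¹ * g) = w) =
      ind (T.wt x = T.s i) * T.cn w := fun x => by
    rw [← Finset.mul_sum, ← T.sum_ind_wt]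
    congr 1
    exact Fintype.sum_equiv (Equiv.mulLeft x⁻¹) _ _ fun _ => rfl
  simp only [h2] at h1
  rw [← Finset.sum_mul, T.sum_ind_wt] at h1
  exact_mod_cast h1.symm

theorem cn_mul_gen {i : ι} {w : W} (hw : ¬ RD T.s w i) :
    T.cn (w * T.s i) * Nat.card T.B = T.cn (T.s i) * T.cn w := by
  rw [← T.cn_inv w, ← T.cn_gen_mul (by rwa [T.cox.LD_inv]), ← T.cn_inv (w * T.s i), mul_inv_rev,
    T.cox.inv.inv_eq]

theorem cn_gen_eq {i j : ι} {u : W} (e : T.s i * u = u * T.s j) :
    T.cn (T.s i) = T.cn (T.s j) := by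
  have key : ∀ u, ¬ LD T.s u i → T.s i * u = u * T.s j → T.cn (T.s i) = T.cn (T.s j) := by
    intro u hu e
    have hu' : ¬ RD T.s u j := by unfold RD; unfold LD at hu; rwa [← e]
    have h1 := T.cn_gen_mul hu
    rw [e, T.cn_mul_gen hu'] at h1
    exact (Nat.eq_of_mul_eq_mul_right (T.cn_pos u) h1).symm
  by_cases hu : LD T.s u i
  · refine key (T.s i * u) (fun h => T.cox.LD_gen_mul.1 h hu) ?_
    rw [T.cox.inv.cancel_left, e, T.cox.inv.cancel_right]
  · exact key u hu e

/-- The square root of the index parameter of a cell. -/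
noncomputable def rt (u : W) : ℝ := √(T.cn u / Nat.card T.B)

theorem rt_pos (u : W) : 0 < T.rt u :=
  Real.sqrt_pos.2 (div_pos (Nat.cast_pos.2 (T.cn_pos u)) (Nat.cast_pos.2 Nat.card_pos))

theorem rt_ne_zero (u : W) : (T.rt u : ℂ) ≠ 0 := Complex.ofReal_ne_zero.2 (T.rt_pos u).ne'

theorem rt_one : T.rt 1 = 1 := by
  rw [rt, T.cn_one, div_self (Nat.cast_ne_zero.2 Nat.card_pos.ne'), Real.sqrt_one]

theorem cn_eq (u : W) : (T.cn u : ℂ) = Nat.card T.B * (T.rt u * T.rt u) := by
  have : (T.cn u : ℝ) = Nat.card T.B * (T.rt u * T.rt u) := by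
    rw [rt, Real.mul_self_sqrt (by positivity),
      mul_div_cancel₀ _ (Nat.cast_ne_zero.2 Nat.card_pos.ne')]
  exact_mod_cast this

theorem rt_eq_mul {a b c : W} (h : T.cn a * Nat.card T.B = T.cn b * T.cn c) :
    (T.rt a : ℂ) = T.rt b * T.rt c := by
  have hB : (Nat.card T.B : ℝ) ≠ 0 := Nat.cast_ne_zero.2 Nat.card_pos.ne'
  have h' : (T.cn a : ℝ) * Nat.card T.B = T.cn b * T.cn c := by exact_mod_cast h
  have : T.rt a = T.rt b * T.rt c := by
    rw [rt, rt, rt, ← Real.sqrt_mul (by positivity)]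
    congr 1
    field_simp
    rw [h']
  exact_mod_cast this

/-- The parameters of the normalised Hecke algebra. -/
noncomputable def hc (i : ι) : ℝ := T.rt (T.s i) - (T.rt (T.s i))⁻¹

/-- The embedding of the normalised Hecke algebra in the group algebra. -/
noncomputable def hPhi : (W → ℂ) →ₗ[ℂ] MonoidAlgebra ℂ G where
  toFun f := ofFun fun g => f (T.wt g) * ((Nat.card T.B : ℂ) * T.rt (T.wt g))⁻¹
  map_add' f f' := ga_ext fun g => by simp only [coeff_add_apply, coeff_ofFun, Pi.add_apply]; ring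
  map_smul' a f := ga_ext fun g => by
    simp only [coeff_ofFun, Pi.smul_apply, RingHom.id_apply, coeff_smul, Finsupp.smul_apply,
      smul_eq_mul]
    ring

theorem coeff_hPhi (f : W → ℂ) (g : G) :
    (T.hPhi f).coeff g = f (T.wt g) * ((Nat.card T.B : ℂ) * T.rt (T.wt g))⁻¹ := rfl

theorem hPhi_injective : Function.Injective T.hPhi := by
  intro f f' h
  ext u
  obtain ⟨g, rfl⟩ := T.wt_surjective u
  have := congrArg (fun a => a.coeff g) h
  simp only [coeff_hPhi] at this
  exact mul_right_cancel₀ (inv_ne_zero (mul_ne_zero (card_ne_zero' _) (T.rt_ne_zero _))) this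

theorem hPhi_dl_one : T.hPhi (dl 1) = avgE T.B := by
  refine ga_ext fun g => ?_
  rw [coeff_hPhi, avgE, coeff_ofFun, dl, ind_congr T.wt_eq_one, mul_comm _ (ind _)]
  refine ind_mul_congr fun hg => ?_
  rw [T.wt_of_mem hg, T.rt_one, Complex.ofReal_one, mul_one]

theorem avgE_mul_hPhi (f : W → ℂ) : avgE T.B * T.hPhi f = T.hPhi f :=
  avgE_mul_eq_iff.2 fun b hb g => by simp only [coeff_hPhi, T.wt_B_mul hb]

theorem hPhi_mul_avgE (f : W → ℂ) : T.hPhi f * avgE T.B = T.hPhi f :=
  mul_avgE_eq_iff.2 fun b hb g => by simp only [coeff_hPhi, T.wt_mul_B _ hb]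

theorem exists_hPhi_eq {a : MonoidAlgebra ℂ G} (h1 : avgE T.B * a = a) (h2 : a * avgE T.B = a) :
    ∃ f, T.hPhi f = a := by
  refine ⟨fun u => a.coeff (T.wt_surjective u).choose * ((Nat.card T.B : ℂ) * T.rt u),
    ga_ext fun g => ?_⟩
  obtain ⟨b, hb, b', hb', e⟩ := T.exists_eq (T.wt_surjective (T.wt g)).choose_spec
  rw [coeff_hPhi, mul_inv_cancel_right₀ (mul_ne_zero (card_ne_zero' _) (T.rt_ne_zero _))]
  conv_rhs => rw [e, mul_avgE_eq_iff.1 h2 _ hb', avgE_mul_eq_iff.1 h1 _ hb]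

theorem hPhi_HL (i : ι) (f : W → ℂ) :
    T.hPhi (HL T.s (fun i => (T.hc i : ℂ)) i f) = T.hPhi (dl (T.s i)) * T.hPhi f := by
  refine ga_ext fun g => ?_
  obtain ⟨F, hF⟩ : ∃ F : W → ℂ, ∀ u, F u = f u * ((Nat.card T.B : ℂ) * T.rt u)⁻¹ :=
    ⟨_, fun _ => rfl⟩
  have e : ∀ x, (T.hPhi (dl (T.s i))).coeff x * (T.hPhi f).coeff (x⁻¹ * g) =
      ((Nat.card T.B : ℂ) * T.rt (T.s i))⁻¹ * (ind (T.wt x = T.s i) *
        F (T.wt (x⁻¹ * g))) := fun x => by
    rw [coeff_hPhi, coeff_hPhi, dl, ← hF, mul_assoc, mul_left_comm _ (ind _)]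
    exact ind_mul_congr fun hx => by rw [hx]
  rw [coeff_mul_left, coeff_hPhi, HL_apply]
  simp only [e]
  rw [← Finset.mul_sum]
  have h1 := card_ne_zero' T.B
  have h2 := T.rt_ne_zero (T.s i)
  have h3 := T.rt_ne_zero (T.wt g)
  have h4 := T.rt_ne_zero (T.s i * T.wt g)
  by_cases hg : LD T.s (T.wt g) i
  · have k := T.rt_eq_mul (T.cn_gen_mul (w := T.s i * T.wt g) fun h => T.cox.LD_gen_mul.1 h hg)
    rw [T.cox.inv.cancel_left] at k
    rw [T.sum_cell_left_down hg, hF, hF, ind_of hg, T.cn_eq, k, hc]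
    push_cast
    field_simp
  · rw [T.sum_cell_left_up hg, hF, ind_of_not hg, T.cn_eq, T.rt_eq_mul (T.cn_gen_mul hg)]
    field_simp
    ring

theorem hPhi_HR (i : ι) (f : W → ℂ) :
    T.hPhi (HR T.s (fun i => (T.hc i : ℂ)) i f) = T.hPhi f * T.hPhi (dl (T.s i)) := by
  refine ga_ext fun g => ?_
  obtain ⟨F, hF⟩ : ∃ F : W → ℂ, ∀ u, F u = f u * ((Nat.card T.B : ℂ) * T.rt u)⁻¹ :=
    ⟨_, fun _ => rfl⟩
  have e : ∀ x, (T.hPhi f).coeff (g * x⁻¹) * (T.hPhi (dl (T.s i))).coeff x =
      ((Nat.card T.B : ℂ) * T.rt (T.s i))⁻¹ * (ind (T.wt x = T.s i) *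
        F (T.wt (g * x⁻¹))) := fun x => by
    rw [mul_comm, coeff_hPhi, coeff_hPhi, dl, ← hF, mul_assoc, mul_left_comm _ (ind _)]
    exact ind_mul_congr fun hx => by rw [hx]
  rw [coeff_mul_right, coeff_hPhi, HR_apply]
  simp only [e]
  rw [← Finset.mul_sum]
  have h1 := card_ne_zero' T.B
  have h2 := T.rt_ne_zero (T.s i)
  have h3 := T.rt_ne_zero (T.wt g)
  have h4 := T.rt_ne_zero (T.wt g * T.s i)
  by_cases hg : RD T.s (T.wt g) i
  · have k := T.rt_eq_mul (T.cn_mul_gen (w := T.wt g * T.s i) fun h => T.cox.RD_mul_gen.1 h hg)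
    rw [T.cox.inv.cancel_right] at k
    rw [T.sum_cell_right_down hg, hF, hF, ind_of hg, T.cn_eq, k, hc]
    push_cast
    field_simp
  · rw [T.sum_cell_right_up hg, hF, ind_of_not hg, T.cn_eq, T.rt_eq_mul (T.cn_mul_gen hg)]
    field_simp
    ring

theorem map_HZ [Fintype W] :
    (HZ T.s fun i => (T.hc i : ℂ)).map T.hPhi = cornerZ (avgE T.B) := by
  apply le_antisymm
  · rintro _ ⟨z, hz, rfl⟩
    refine ⟨T.avgE_mul_hPhi z, T.hPhi_mul_avgE z, fun a h1 h2 => ?_⟩
    obtain ⟨f, rfl⟩ := T.exists_hPhi_eq h1 h2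
    have key : ∀ l : List ι, Commute (T.hPhi (HLl T.s (fun i => (T.hc i : ℂ)) l (dl 1)))
        (T.hPhi z) := by
      intro l
      induction l with
      | nil =>
        change T.hPhi (dl 1) * _ = _ * T.hPhi (dl 1)
        rw [T.hPhi_dl_one, T.avgE_mul_hPhi, T.hPhi_mul_avgE]
      | cons i l ih =>
        rw [HLl_cons, Module.End.mul_apply, T.hPhi_HL]
        refine Commute.mul_left ?_ ih
        change _ * _ = _ * _
        rw [← T.hPhi_HL, ← T.hPhi_HR, (mem_HZ _ _).1 hz i]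
    rw [eq_sum_dl f, map_sum]
    refine Commute.sum_left _ _ _ fun w _ => ?_
    rw [map_smul]
    refine Commute.smul_left ?_ _
    have := key (T.cox.rw w)
    rwa [T.cox.HLl_dl_one _ (T.cox.reduced_rw w), T.cox.wprod_rw] at this
  · rintro a ⟨h1, h2, h3⟩
    obtain ⟨f, rfl⟩ := T.exists_hPhi_eq h1 h2
    refine ⟨f, (mem_HZ _ _).2 fun i => T.hPhi_injective ?_, rfl⟩
    rw [T.hPhi_HL, T.hPhi_HR, h3 _ (T.avgE_mul_hPhi _) (T.hPhi_mul_avgE _)]

/-- The permutation character on the cosets of `B` has as many irreducible constituents as the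
Weyl group has conjugacy classes. -/
theorem card_constituents [Finite ι] :
    Nat.card {χ : IrrCharacter G //
      ∃ φ : G → ℂ, IsCharacter G φ ∧ fixedPointCharacter T.B = (χ : G → ℂ) + φ} =
      Nat.card (ConjClasses W) := by
  have := T.finite_W
  have := Fintype.ofFinite W
  rw [← T.cox.finrank_HZ T.hc fun i j u e => by simp only [hc, rt, T.cn_gen_eq e],
    (Submodule.equivMapOfInjective _ T.hPhi_injective _).finrank_eq, T.map_HZ,
    finrank_cornerZ (avgE_mul_self _)]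
  exact Nat.card_congr (Equiv.subtypeEquivRight fun χ => (ev_avgE_ne_zero_iff _ χ).symm)

end Tits

end Cfsg.Agent.St
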