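import Mathlib
import Cfsg.Agent.St.Birkhoff
import Cfsg.Agent.Block.NormalPNil

/-!
Weight vectors (Curtis, Richen) in modules in the natural characteristic for a finite group with
root elements.
-/

set_option autoImplicit false
set_option linter.unusedSectionVars false

namespace Cfsg.Agent.St

open Cfsg Cfsg.Lie Cfsg.Agent.Chev

section General

variable {k : Type*} [Field k]

theorem enough_of_card [IsAlgClosed k] (A : Type*) [Group A] [Finite A]
    (h : (Nat.card A : k) ≠ 0) : HasEnoughRootsOfUnity k (Monoid.exponent A) := by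
  have : NeZero ((Monoid.exponent A : ℕ) : k) := ⟨fun h0 => h (by
    obtain ⟨c, hc⟩ := Group.exponent_dvd_nat_card (G := A)
    rw [hc, Nat.cast_mul, h0, zero_mul])⟩
  infer_instance

theorem exists_char_sum_ne_zero [IsAlgClosed k] {A M : Type*} [CommGroup A] [Fintype A]
    [AddCommGroup M] [Module k M] (h : (Nat.card A : k) ≠ 0) (v : A → M) (hv : v 1 ≠ 0) :
    ∃ χ : A →* kˣ, ∑ c, ((χ c)⁻¹ : kˣ) • v c ≠ 0 := by
  classical
  have := enough_of_card A h
  have hc := CommGroup.card_monoidHom_of_hasEnoughRootsOfUnity A k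
  have : Finite (A →* kˣ) := Nat.finite_of_card_ne_zero (hc ▸ Nat.card_pos.ne')
  have := Fintype.ofFinite (A →* kˣ)
  by_contra h0
  push Not at h0
  have h1 := Finset.sum_eq_zero fun χ (_ : χ ∈ Finset.univ) => h0 χ
  rw [Finset.sum_comm, Finset.sum_eq_single 1] at h1
  · simp only [map_one, inv_one, one_smul, Finset.sum_const, Finset.card_univ] at h1
    rw [← Nat.cast_smul_eq_nsmul k, ← Nat.card_eq_fintype_card, hc] at h1
    exact hv ((smul_eq_zero.1 h1).resolve_left h)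
  · intro c _ hc1
    obtain ⟨φ, hφ⟩ := CommGroup.exists_apply_ne_one_of_hasEnoughRootsOfUnity A k (inv_ne_one.2 hc1)
    have h2 := sum_hom_units_eq_zero ((Units.coeHom k).comp (MonoidHom.eval c⁻¹ : (A →* kˣ) →* kˣ))
      fun e => hφ (Units.ext (DFunLike.congr_fun e φ))
    simp only [Units.smul_def, ← Finset.sum_smul, ← map_inv]
    exact (congrArg (· • v c) h2).trans (zero_smul _ _)
  · simp

variable (k) in
/-- The representation on functions by left translation. -/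
def lam (G : Type*) [Group G] : Representation k G (G → k) where
  toFun g := LinearMap.funLeft k k fun a => g⁻¹ * a
  map_one' := by ext; simp
  map_mul' g h := by ext; simp [mul_assoc]

variable {G : Type*} [Group G] {M : Type*} [AddCommGroup M] [Module k M]
  (ρ : Representation k G M)

@[simp] theorem lam_apply (g : G) (y : G → k) (a : G) : lam k G g y a = y (g⁻¹ * a) := rfl

theorem rep_mul (a b : G) (m : M) : ρ (a * b) m = ρ a (ρ b m) := by rw [map_mul]; rfl

open Classical in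
/-- The map from functions on the cosets of `V` to a module given by a vector fixed by `V`. -/
noncomputable def th [Fintype G] (V : Subgroup G) (m : M) : (G → k) →ₗ[k] M where
  toFun y := ∑ q : G ⧸ V, y q.out • ρ q.out m
  map_add' y z := by simp [add_smul, Finset.sum_add_distrib]
  map_smul' c y := by simp [Finset.smul_sum, mul_smul]

theorem th_lam [Fintype G] {V : Subgroup G} {m : M} (hm : ∀ v ∈ V, ρ v m = m) {y : G → k}
    (hy : ∀ g, ∀ v ∈ V, y (g * v) = y g) (g : G) :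
    th ρ V m (lam k G g y) = ρ g (th ρ V m y) := by
  classical
  simp only [th, LinearMap.coe_mk, AddHom.coe_mk, map_sum, map_smul, lam_apply]
  refine (Fintype.sum_equiv (MulAction.toPerm g) _ _ fun q => ?_).symm
  have h1 : (g * q.out)⁻¹ * (g • q).out ∈ V := by
    rw [← QuotientGroup.eq, QuotientGroup.out_eq', ← smul_eq_mul, ← MulAction.Quotient.smul_coe,
      QuotientGroup.out_eq']
  rw [MulAction.toPerm_apply, show (g • q).out = g * q.out * ((g * q.out)⁻¹ * (g • q).out) by group,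
    rep_mul, hm _ h1, rep_mul, mul_assoc g, inv_mul_cancel_left, hy _ _ h1]

theorem th_coset [Fintype G] {V : Subgroup G} {m : M} (hm : ∀ v ∈ V, ρ v m = m) {y : G → k}
    {a : G} (h1 : ∀ v ∈ V, y (a * v) = 1) (h0 : ∀ g, a⁻¹ * g ∉ V → y g = 0) :
    th ρ V m y = ρ a m := by
  classical
  simp only [th, LinearMap.coe_mk, AddHom.coe_mk]
  rw [Finset.sum_eq_single (a : G ⧸ V)]
  · obtain ⟨v, hv⟩ := QuotientGroup.mk_out_eq_mul V a
    rw [hv, h1 _ v.2, one_smul, rep_mul, hm _ v.2]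
  · intro q _ hq
    rw [h0 _ fun h => hq (by rw [← QuotientGroup.eq, QuotientGroup.out_eq'] at h; exact h.symm),
      zero_smul]
  · simp

theorem exists_fixed {p : ℕ} [Fact p.Prime] [CharP k p] [Finite G] [Nontrivial M]
    {V : Subgroup G} (hV : IsPGroup p V) : ∃ m : M, m ≠ 0 ∧ ∀ v ∈ V, ρ v m = m := by
  obtain ⟨m, h0, h1⟩ := Block.exists_fixed_ne_zero (V := M) hV
    (fun v => by rw [← Nat.cast_smul_eq_nsmul k, CharP.cast_eq_zero, zero_smul])
    (MonoidHom.comp ρ V.subtype)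
  exact ⟨m, h0, fun v hv => h1 ⟨v, hv⟩⟩

theorem map_asAlgebraHom_eq {N : Type*} [AddCommGroup N] [Module k N] (σ : Representation k G N)
    {φ : M →ₗ[k] k} {ψ : N →ₗ[k] k} {m : M} {n : N} (h : ∀ g, φ (ρ g m) = ψ (σ g n))
    (a : MonoidAlgebra k G) : φ (ρ.asAlgebraHom a m) = ψ (σ.asAlgebraHom a n) := by
  induction a using MonoidAlgebra.induction_linear with
  | zero => simp
  | add a b ha hb => simp [ha, hb]
  | single g c => simp [h]

end General

variable {F : Type*} [Field F] {G : Type*} [Group G] {D : ChevalleyDatum} {x : ℕ → F → G}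
  {T : RootTable D} (hn : IsND x T) (h : IsSt D x) (htop : Gs D x = ⊤)
  [Fintype F] [DecidableEq F] {k : Type*} [Field k] {M : Type*} [AddCommGroup M] [Module k M]

variable (D x) in
/-- The operator `∑ₜ x_i(t) n_i`. -/
def top (ρ : Representation k G M) (i : Fin D.rank) (m : M) : M :=
  ∑ t : F, ρ (x (D.simple i) t * nn D x (D.simple i) 1) m

variable (T) in
/-- The function constant on the double cosets `U n V` with given values on `N`. -/
noncomputable def yf (f : G → k) : G → k := fun g => f (bk T h htop g)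

include hn in
theorem lam_yf_U (f : G → k) {u : G} (hu : u ∈ Us D x) :
    lam k G u (yf T h htop f) = yf T h htop f := by
  funext g
  rw [lam_apply, yf, bk_U_mul hn h htop (inv_mem hu), yf]

include hn in
theorem lam_yf_H (f : G → k) {a : G} (ha : a ∈ Hs D x) :
    lam k G a (yf T h htop f) = yf T h htop fun g => f (a⁻¹ * g) := by
  funext g
  rw [lam_apply, yf, bk_H_mul hn h htop (inv_mem ha), yf]

include hn in
theorem yf_mul_V (f : G → k) (g v : G) (hv : v ∈ Vs D x) :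
    yf T h htop f (g * v) = yf T h htop f g := by
  rw [yf, bk_mul_V hn h htop hv, yf]

theorem top_yf_apply (f : G → k) (i : Fin D.rank) (g : G) :
    top D x (lam k G) i (yf T h htop f) g =
      ∑ t : F, f (bk T h htop ((x (D.simple i) t * nn D x (D.simple i) 1)⁻¹ * g)) := by
  simp only [top, Finset.sum_apply, lam_apply, yf]

theorem act_inv_simple_mul (i : Fin D.rank) (w : T.W) :
    T.act ((T.cs.simple i)⁻¹ * w)⁻¹ (D.simple i) = D.neg (T.act w⁻¹ (D.simple i)) := by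
  rw [mul_inv_rev, inv_inv, T.act_mul, T.act_simple i (T.simple_lt i), RootTable.refl_simple,
    T.act_neg _ (T.simple_lt i)]

variable (p : ℕ) [CharP F p] [CharP k p]

include hn p in
theorem top_yf_pos {f : G → k} {i : Fin D.rank}
    (hf : ∀ n ∈ Ns D x, ∀ w, Acts x T n w → T.act w⁻¹ (D.simple i) < T.N → f n = 0) :
    top D x (lam k G) i (yf T h htop f) =
      ∑ t : Fˣ, lam k G (hh D x (D.simple i) t)⁻¹ (yf T h htop f) := by
  funext g
  have hN := bk_mem (T := T) h htop g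
  obtain ⟨w, hw⟩ := h.exists_acts T hN
  have h1 := fun t : Fˣ => hh_mem_Hs (x := x) (T.simple_lt' i) t.ne_zero
  simp only [top_yf_apply, Finset.sum_apply, lam_yf_H hn h htop f (inv_mem (h1 _)), inv_inv, yf]
  rcases lt_or_ge (T.act w⁻¹ (D.simple i)) T.N with hi | hi
  · rw [sum_bk_of_lt hn h htop p i f hw hi]
    exact (Finset.sum_eq_zero fun t _ => hf _ (mul_mem (Hs_le_Ns (h1 t)) hN) _
      ((h.acts_of_mem_Hs T (h1 t)).mul hw) (by rwa [one_mul])).symm
  · rw [sum_bk_of_le hn h htop i f hw hi, hf _ (mul_mem (inv_mem (nn_one_mem_Ns (T.simple_lt' i)))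
      hN) _ ((h.acts_nn_simple T i).inv.mul hw), zero_add]
    rw [act_inv_simple_mul]
    exact T.neg_lt_N hi (T.act_lt _ (T.simple_lt i))

include hn p in
theorem top_yf_neg {f : G → k} {i : Fin D.rank}
    (hf : ∀ n ∈ Ns D x, ∀ w, Acts x T n w → T.N ≤ T.act w⁻¹ (D.simple i) → f n = 0) :
    top D x (lam k G) i (yf T h htop f) =
      yf T h htop fun g => f ((nn D x (D.simple i) 1)⁻¹ * g) := by
  funext g
  have hN := bk_mem (T := T) h htop g
  obtain ⟨w, hw⟩ := h.exists_acts T hN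
  have h1 := fun t : Fˣ => hh_mem_Hs (x := x) (T.simple_lt' i) t.ne_zero
  rw [top_yf_apply, yf]
  rcases lt_or_ge (T.act w⁻¹ (D.simple i)) T.N with hi | hi
  · rw [sum_bk_of_lt hn h htop p i f hw hi, hf _ (mul_mem (inv_mem (nn_one_mem_Ns (T.simple_lt' i)))
      hN) _ ((h.acts_nn_simple T i).inv.mul hw)]
    rw [act_inv_simple_mul]
    exact T.N_le_neg hi
  · rw [sum_bk_of_le hn h htop i f hw hi, Finset.sum_eq_zero fun t _ =>
      hf _ (mul_mem (Hs_le_Ns (h1 t)) hN) _ ((h.acts_of_mem_Hs T (h1 t)).mul hw)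
        (by rwa [one_mul]), add_zero]

include p in
theorem card_units_cast : (Fintype.card Fˣ : k) = -1 := by
  obtain ⟨n, -, hq⟩ := FiniteField.card F p
  rw [Fintype.card_units, Nat.cast_sub Fintype.card_pos, hq, Nat.cast_pow, CharP.cast_eq_zero,
    zero_pow n.ne_zero, Nat.cast_one, zero_sub]

include hn p in
theorem top_yf_zero {f : G → k} {i : Fin D.rank}
    (h1 : ∀ g, f ((nn D x (D.simple i) 1)⁻¹ * g) = f g)
    (h2 : ∀ (t : Fˣ) g, f (hh D x (D.simple i) t * g) = f g) :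
    top D x (lam k G) i (yf T h htop f) = 0 := by
  funext g
  obtain ⟨w, hw⟩ := h.exists_acts T (bk_mem (T := T) h htop g)
  rw [top_yf_apply, Pi.zero_apply]
  rcases lt_or_ge (T.act w⁻¹ (D.simple i)) T.N with hi | hi
  · exact sum_bk_of_lt hn h htop p i f hw hi
  · rw [sum_bk_of_le hn h htop i f hw hi]
    simp [h1, h2, card_units_cast p]

include hn h p in
theorem isPGroup_Vs [Fact p.Prime] : IsPGroup p (Vs D x) := by
  obtain ⟨n, -, hq⟩ := FiniteField.card F p
  exact IsPGroup.of_card (n := n * {r | r < T.N}.ncard) (by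
    rw [T.Vs_eq, hn.card_XS h.toIsSt0 T.nil_neg', Nat.card_eq_fintype_card, hq, pow_mul])

variable (τ : (Fin D.rank → Fˣ) →* G)
  (hτ : ∀ (i : Fin D.rank) (c : Fˣ), τ (Pi.mulSingle i c) = hh D x (D.simple i) c)

include T h hτ in
theorem range_tau : τ.range = Hs D x := by
  apply le_antisymm
  · rintro _ ⟨c, rfl⟩
    rw [← Finset.univ_prod_mulSingle c]
    refine Finset.prod_induction _ (fun c => τ c ∈ Hs D x)
      (fun a b ha hb => by rw [map_mul]; exact mul_mem ha hb) (by rw [map_one]; exact one_mem _)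
      fun i _ => ?_
    rw [hτ]
    exact hh_mem_Hs (T.simple_lt' i) (c i).ne_zero
  · exact h.Hs_le_of_simple T fun i t ht => ⟨_, hτ i (Units.mk0 t ht)⟩

include hn h htop hτ p in
theorem exists_weak [Fact p.Prime] [IsAlgClosed k] [Finite G] [Nontrivial M]
    (ρ : Representation k G M) : ∃ m : M, m ≠ 0 ∧ (∀ u ∈ Us D x, ρ u m = m) ∧
      (∀ a ∈ Hs D x, ∃ c : k, ρ a m = c • m) ∧ ∀ i, top D x ρ i m = 0 ∨
        top D x ρ i m = ∑ t : Fˣ, ρ (hh D x (D.simple i) t)⁻¹ m := by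
  classical
  have := Fintype.ofFinite G
  obtain ⟨m₀, h0, hm⟩ := exists_fixed ρ (isPGroup_Vs hn h p)
  have hl : ∀ (f : G → k) g, th ρ (Vs D x) m₀ (lam k G g (yf T h htop f)) =
      ρ g (th ρ (Vs D x) m₀ (yf T h htop f)) := fun f => th_lam ρ hm (yf_mul_V hn h htop f)
  have ht : ∀ (f : G → k) i, th ρ (Vs D x) m₀ (top D x (lam k G) i (yf T h htop f)) =
      top D x ρ i (th ρ (Vs D x) m₀ (yf T h htop f)) := fun f i => by
    simp only [top, map_sum, hl]
  let P : T.W → Prop := fun w => ∃ f : G → k, (∀ a ∈ Hs D x, ∃ c, ∀ g, f (a⁻¹ * g) = c * f g) ∧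
    (∀ n ∈ Ns D x, f n ≠ 0 → Acts x T n w) ∧ th ρ (Vs D x) m₀ (yf T h htop f) ≠ 0
  have hP : ∃ w, P w := by
    obtain ⟨n₀, hN, -, h1⟩ := h.exists_longest_N T
    obtain ⟨w₀, hw₀⟩ := h.exists_acts T hN
    have hτ' : ∀ c, τ c ∈ Hs D x := fun c => range_tau (T := T) h τ hτ ▸ ⟨c, rfl⟩
    have h2 : th ρ (Vs D x) m₀ (yf T h htop (Pi.single n₀ 1)) = ρ n₀ m₀ := by
      refine th_coset ρ hm (fun v hv => ?_) fun g hg => ?_
      · rw [yf_mul_V hn h htop _ _ _ hv, yf, bk_of_mem hn h htop hN, Pi.single_eq_same]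
      · refine Pi.single_eq_of_ne (fun e => hg ?_) _
        obtain ⟨u, hu, v, hv, e'⟩ := exists_bk (T := T) h htop g
        obtain ⟨v', hv', rfl⟩ := h1.ge hu
        rw [e', e]
        simpa [mul_assoc] using mul_mem hv' hv
    obtain ⟨χ, hχ⟩ := exists_char_sum_ne_zero (k := k) (A := Fin D.rank → Fˣ) (by
      rw [Nat.card_fun, Nat.card_eq_fintype_card, Nat.cast_pow, card_units_cast p]
      simp) (fun c => ρ (τ c) (ρ n₀ m₀)) (by
        rw [map_one, map_one, Module.End.one_apply]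
        intro e
        exact h0 (by rw [← Module.End.one_apply (R := k) m₀, ← map_one ρ, ← inv_mul_cancel n₀,
          rep_mul, e, map_zero]))
    refine ⟨w₀, ∑ c, ((χ c)⁻¹ : kˣ) • fun g => (Pi.single n₀ 1 : G → k) ((τ c)⁻¹ * g),
      fun a ha => ?_, fun n _ hf => ?_, ?_⟩
    · obtain ⟨c₀, rfl⟩ := (range_tau (T := T) h τ hτ).ge ha
      refine ⟨χ c₀, fun g => ?_⟩
      simp only [Finset.sum_apply, Finset.mul_sum]
      refine Fintype.sum_equiv (Equiv.mulLeft c₀) _ _ fun c => ?_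
      simp [Units.smul_def, mul_assoc, mul_left_comm ((χ c : k)⁻¹)]
    · rw [Finset.sum_apply] at hf
      obtain ⟨c, -, hc⟩ := Finset.exists_ne_zero_of_sum_ne_zero hf
      have h3 : (τ c)⁻¹ * n = n₀ := by
        by_contra e
        exact hc (by simp [Pi.single_eq_of_ne e])
      simpa [← h3] using (h.acts_of_mem_Hs T (hτ' c)).mul hw₀
    · convert hχ using 1
      simp only [← h2, ← hl, lam_yf_H hn h htop _ (hτ' _), Units.smul_def, ← map_smul, ← map_sum]
      congr 1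
      funext g
      simp [yf]
  obtain ⟨w, ⟨f, h1, h2, h3⟩, hw⟩ :=
    exists_minimalFor_of_wellFoundedLT P (fun w => T.cs.length w⁻¹) hP
  refine ⟨_, h3, fun u hu => by rw [← hl, lam_yf_U hn h htop f hu], fun a ha => ?_, fun i => ?_⟩
  · obtain ⟨c, hc⟩ := h1 a ha
    refine ⟨c, ?_⟩
    rw [← hl, lam_yf_H hn h htop f ha, ← map_smul]
    simp only [hc]
    rfl
  have h4 : ∀ n ∈ Ns D x, ∀ w', Acts x T n w' → w' ≠ w → f n = 0 := fun n hN w' hw' e => by
    by_contra h5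
    exact e (hn.acts_unique h.toIsSt0 hw' (h2 n hN h5))
  rcases lt_or_ge (T.act w⁻¹ (D.simple i)) T.N with hi | hi
  · left
    rw [← ht, top_yf_neg hn h htop p fun n hN w' hw' h5 => h4 n hN w' hw' (by rintro rfl; omega)]
    by_contra h5
    have hs := h.acts_nn_simple T i
    have hN := nn_one_mem_Ns (x := x) (T.simple_lt' i)
    have h6 : T.cs.length (T.cs.simple i * w)⁻¹ < T.cs.length w⁻¹ := by
      rw [mul_inv_rev, T.cs.inv_simple]
      exact (T.isRightDescent_iff _ i).2 hi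
    refine absurd (hw (j := T.cs.simple i * w) ⟨_, fun a ha => ?_, fun n hN' h7 => ?_, h5⟩ h6.le)
      (not_le.2 h6)
    · obtain ⟨c, hc⟩ := h1 _ (h.conj_mem_Hs' T hN ha)
      exact ⟨c, fun g => by rw [← hc]; congr 1; group⟩
    · simpa using hs.mul (h2 _ (mul_mem (inv_mem hN) hN') h7)
  · right
    rw [← ht, top_yf_pos hn h htop p fun n hN w' hw' h5 => h4 n hN w' hw' (by rintro rfl; omega)]
    simp only [map_sum, hl]

include T h htop in
/-- A weight vector generates the module it generates already under `V`. -/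
theorem map_eq_zero_of_weak {ρ : Representation k G M} {m : M} (hU : ∀ u ∈ Us D x, ρ u m = m)
    (hH : ∀ a ∈ Hs D x, ∃ c : k, ρ a m = c • m) (hT : ∀ i, ∃ c : k, top D x ρ i m = c • m)
    {φ : M →ₗ[k] k} (hφ : ∀ v ∈ Vs D x, ∀ z, φ (ρ v z) = φ z) (h0 : φ m = 0) (g : G) :
    φ (ρ g m) = 0 := by
  let S : Submodule k M := Submodule.span k ((fun v => ρ v m) '' Vs D x)
  have hS : ∀ g, (∀ v ∈ Vs D x, ρ (g * v) m ∈ S) → ∀ s ∈ S, ρ g s ∈ S := by
    intro g hg s hs
    refine (Submodule.span_le (p := S.comap (ρ g))).2 ?_ hs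
    rintro _ ⟨v, hv, rfl⟩
    exact (rep_mul ρ g v m ▸ hg v hv : ρ g (ρ v m) ∈ S)
  have h1 : ∀ v ∈ Vs D x, ρ v m ∈ S := fun v hv => Submodule.subset_span ⟨v, hv, rfl⟩
  have hm : m ∈ S := by simpa using h1 1 (one_mem _)
  have h2 : ∀ v ∈ Vs D x, ∀ s ∈ S, ρ v s ∈ S := fun v hv =>
    hS v fun v' hv' => h1 _ (mul_mem hv hv')
  have h3 : ∀ a ∈ Hs D x, ∀ s ∈ S, ρ a s ∈ S := fun a ha => hS a fun v hv => by
    obtain ⟨c, hc⟩ := hH a ha
    rw [show a * v = a * v * a⁻¹ * a by group, rep_mul, hc, map_smul]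
    exact S.smul_mem _ (h1 _ (conj_mem_of_mem_normalizer (h.Hs_le_normalizer_Vs T ha) hv))
  have h4 : ∀ (i : Fin D.rank) (t : F), ∀ s ∈ S, ρ (x (D.simple i) t) s ∈ S := by
    intro i
    have hi := T.simple_lt i
    have hi' := T.simple_lt' i
    have hx := fun t => T.mem_Us' (x := x) (T.N_le_simple i) hi t
    have hy := fun t => T.mem_Vs' (x := x) (T.neg_lt_N (T.N_le_simple i) hi) t
    have h5 : ∀ a : F, a ≠ 0 → ρ (x (D.simple i) a * nn D x (D.simple i) 1) m ∈ S := by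
      intro a ha
      have h6 := hh_mem_Hs (x := x) hi' (neg_ne_zero.2 (inv_ne_zero ha))
      have h7 := h.hh_conj T hi hi (neg_ne_zero.2 (inv_ne_zero ha)) a
      rw [T.pairing_self _ hi, show (-a⁻¹) ^ (2 : ℤ) * a = a⁻¹ by field_simp] at h7
      have h8 := h3 _ (inv_mem h6) _ (h1 _ (hy a))
      rw [h.toIsSt0.x_neg_root_eq T hi, rep_mul, hU _ (hx _), h.toIsSt0.nn_eq T hi, ← h7,
        ← rep_mul] at h8
      simpa only [mul_assoc, inv_mul_cancel_left] using h8
    have h6 : ∀ a : F, ρ (x (D.simple i) a * nn D x (D.simple i) 1) m ∈ S := by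
      intro a
      by_cases ha : a = 0
      · obtain ⟨c, hc⟩ := hT i
        rw [top, sum_eq_add_sum_units] at hc
        rw [ha, eq_sub_of_add_eq hc]
        exact S.sub_mem (S.smul_mem _ hm) (S.sum_mem fun t _ => h5 _ t.ne_zero)
      · exact h5 a ha
    intro t
    refine hS _ fun v hv => ?_
    have e : {r | r < T.N} = {r | r < 2 * T.N ∧ fJ D {(i : ℕ)} (T.vec r) < 0} ∪
        {D.neg (D.simple i)} := by
      ext r
      simp only [Set.mem_union, Set.mem_ofPred_eq, Set.mem_singleton_iff]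
      refine ⟨fun hr => ?_, ?_⟩
      · have hr' : r < 2 * T.N := by omega
        refine ((T.fJ_nonpos' {(i : ℕ)} hr).lt_or_eq.imp (fun h7 => ⟨hr', h7⟩) fun h7 => ?_)
        rw [← T.eq_simple_of_inRootSub (T.N_le_neg hr)
          (T.inRootSub_neg ((T.fJ_eq_zero_iff' _ hr').1 h7)), T.neg_neg hr']
      · rintro (hr | rfl)
        · exact not_le.1 fun h7 => not_le.2 hr.2 (T.fJ_nonneg' _ h7 hr.1)
        · exact T.neg_lt_N (T.N_le_simple i) hi
    have h7 : fJ D {(i : ℕ)} (T.vec (D.simple i)) = 0 :=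
      (T.fJ_eq_zero_iff' _ hi).2 (T.inRootSub_simple.2 rfl)
    rw [T.Vs_eq, e] at hv
    obtain ⟨v', hv', b, hb, rfl⟩ := h.toIsSt0.exists_mul_of_mem_union (e ▸ T.nil_neg') hv
    obtain ⟨a, rfl⟩ := (h.toIsSt0.mem_XS_singleton (T.neg_lt' hi')).1 hb
    have h8 := h.toIsSt0.conj_mem_XS T hi
      (S := {r | r < 2 * T.N ∧ fJ D {(i : ℕ)} (T.vec r) < 0}) (fun s hs => hs.1) (fun s hs e' => by
      have := hs.2
      rw [e', T.vec_neg _ hi, map_neg, h7] at this
      simp at this) (fun s hs j hj a b _ hb e' => ⟨hj, by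
        rw [e', map_add, map_nsmul, map_nsmul, h7, smul_zero, zero_add]
        exact nsmul_neg hs.2 hb.ne'⟩) t hv'
    rw [show x (D.simple i) t * (v' * x (D.neg (D.simple i)) a) = x (D.simple i) t * v' *
      (x (D.simple i) t)⁻¹ * (x (D.simple i) t * x (D.neg (D.simple i)) a) by group, rep_mul]
    refine h2 _ (by rw [T.Vs_eq, e]; exact XS_mono Set.subset_union_left h8) _ ?_
    by_cases ha : a = 0
    · rwa [ha, h.toIsSt0.x_zero (T.neg_lt' hi'), mul_one, hU _ (hx _)]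
    have h9 := hh_mem_Hs (x := x) hi' (neg_ne_zero.2 (inv_ne_zero ha))
    obtain ⟨c, -, hc⟩ := (h.acts_of_mem_Hs T h9).conj' hi
    have h10 := h3 _ h9 _ (h6 (c * (t + a⁻¹)))
    rw [inv_one, T.act_one] at hc
    rw [← hc, ← h.add _ hi', ← rep_mul] at h10
    rw [h.toIsSt0.x_neg_root_eq T hi, ← mul_assoc, rep_mul, hU _ (hx _), h.toIsSt0.nn_eq T hi]
    simpa only [mul_assoc, mul_inv_cancel_left] using h10
  let K : Subgroup G :=
    { carrier := {g | (∀ s ∈ S, ρ g s ∈ S) ∧ ∀ s ∈ S, ρ g⁻¹ s ∈ S}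
      one_mem' := by simp
      mul_mem' := fun {a b} ha hb => ⟨fun s hs => by rw [rep_mul]; exact ha.1 _ (hb.1 s hs),
        fun s hs => by rw [mul_inv_rev, rep_mul]; exact hb.2 _ (ha.2 s hs)⟩
      inv_mem' := fun {a} ha => ⟨ha.2, by rw [inv_inv]; exact ha.1⟩ }
  have hK : Gs D x ≤ K := h.Gs_le_of_simple T
    (fun i t => ⟨h4 i t, h.toIsSt0.x_neg (T.simple_lt' i) t ▸ h4 i (-t)⟩) fun i t =>
      have := T.mem_Vs' (x := x) (T.neg_lt_N (T.N_le_simple i) (T.simple_lt i)) t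
      ⟨h2 _ this, h2 _ (inv_mem this)⟩
  refine (Submodule.span_le (p := LinearMap.ker φ)).2 ?_ ((hK (htop ▸ trivial : g ∈ _)).1 m hm)
  rintro _ ⟨v, hv, rfl⟩
  exact (hφ v hv m).trans h0

variable (x) in
/-- A weight vector. -/
structure Wt (ρ : Representation k G M) (m : M) (χ : (Fin D.rank → Fˣ) →* kˣ)
    (J : Set (Fin D.rank)) : Prop where
  fix : ∀ u ∈ Us D x, ρ u m = m
  eig : ∀ c, ρ (τ c) m = (χ c : k) • m
  top1 : ∀ i ∈ J, top D x ρ i m = -m
  top0 : ∀ i ∉ J, top D x ρ i m = 0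

/-- An admissible weight. -/
def Adm (χ : (Fin D.rank → Fˣ) →* kˣ) (J : Set (Fin D.rank)) : Prop :=
  ∀ i ∈ J, ∀ t, χ (Pi.mulSingle i t) = 1

theorem Wt.smul {ρ : Representation k G M} {m : M} {χ : (Fin D.rank → Fˣ) →* kˣ}
    {J : Set (Fin D.rank)} (hm : Wt x τ ρ m χ J) (c : k) : Wt x τ ρ (c • m) χ J := by
  have : ∀ i, top D x ρ i (c • m) = c • top D x ρ i m := fun i => by simp [top, Finset.smul_sum]
  exact ⟨fun u hu => by rw [map_smul, hm.fix u hu], fun a => by rw [map_smul, hm.eig, smul_comm],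
    fun i hi => by rw [this, hm.top1 i hi, smul_neg], fun i hi => by
      rw [this, hm.top0 i hi, smul_zero]⟩

theorem Wt.unique {ρ : Representation k G M} {m : M} {χ χ' : (Fin D.rank → Fˣ) →* kˣ}
    {J J' : Set (Fin D.rank)} (hm : Wt x τ ρ m χ J) (hm' : Wt x τ ρ m χ' J') (h0 : m ≠ 0) :
    χ = χ' ∧ J = J' := by
  refine ⟨MonoidHom.ext fun c => Units.ext
    (smul_left_injective k h0 ((hm.eig c).symm.trans (hm'.eig c))), Set.ext fun i => ?_⟩
  constructor <;> intro hi <;> by_contra hi'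
  · exact h0 (neg_eq_zero.1 ((hm.top1 i hi).symm.trans (hm'.top0 i hi')))
  · exact h0 (neg_eq_zero.1 ((hm'.top1 i hi).symm.trans (hm.top0 i hi')))

include T h htop hτ in
theorem Wt.map_eq_zero {ρ : Representation k G M} {m : M} {χ : (Fin D.rank → Fˣ) →* kˣ}
    {J : Set (Fin D.rank)} (hm : Wt x τ ρ m χ J) {φ : M →ₗ[k] k}
    (hφ : ∀ v ∈ Vs D x, ∀ z, φ (ρ v z) = φ z) (h0 : φ m = 0) (g : G) : φ (ρ g m) = 0 := by
  refine map_eq_zero_of_weak (T := T) h htop hm.fix (fun a ha => ?_) (fun i => ?_) hφ h0 g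
  · obtain ⟨c, rfl⟩ := (range_tau (T := T) h τ hτ).ge ha
    exact ⟨_, hm.eig c⟩
  · by_cases hi : i ∈ J
    · exact ⟨-1, by rw [hm.top1 i hi, neg_one_smul]⟩
    · exact ⟨0, by rw [hm.top0 i hi, zero_smul]⟩

include p in
theorem sum_char_inv (χ : (Fin D.rank → Fˣ) →* kˣ) (i : Fin D.rank) :
    ((∀ t, χ (Pi.mulSingle i t) = 1) → ∑ t : Fˣ, (χ (Pi.mulSingle i t)⁻¹ : k) = -1) ∧
      (¬ (∀ t, χ (Pi.mulSingle i t) = 1) → ∑ t : Fˣ, (χ (Pi.mulSingle i t)⁻¹ : k) = 0) := by
  refine ⟨fun h1 => by simp [h1, card_units_cast p], fun h1 => ?_⟩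
  simp only [map_inv]
  refine sum_hom_units_eq_zero
    ((Units.coeHom k).comp (χ.comp (MonoidHom.mulSingle (fun _ => Fˣ) i))⁻¹) ?_
  intro e
  refine h1 fun t => ?_
  simpa using DFunLike.congr_fun e t

include hn h htop hτ p in
theorem exists_wt [Fact p.Prime] [IsAlgClosed k] [Finite G] [Nontrivial M]
    (ρ : Representation k G M) : ∃ m : M, m ≠ 0 ∧ ∃ χ J, Adm χ J ∧ Wt x τ ρ m χ J := by
  obtain ⟨m, h0, h1, h2, h3⟩ := exists_weak hn h htop p τ hτ ρ
  choose c hc using fun a => h2 (τ a) ((range_tau (T := T) h τ hτ).le ⟨a, rfl⟩)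
  let χ₀ : (Fin D.rank → Fˣ) →* k :=
    { toFun := c
      map_one' := smul_left_injective k h0 (by simp [← hc])
      map_mul' := fun a b => smul_left_injective k h0 (by
        change c (a * b) • m = (c a * c b) • m
        rw [← hc, map_mul, rep_mul, hc b, map_smul, hc a, smul_smul, mul_comm]) }
  have h4 : ∀ a, ρ (τ a) m = (χ₀.toHomUnits a : k) • m := hc
  generalize χ₀.toHomUnits = χ at h4
  refine ⟨m, h0, χ, {i | (∀ t, χ (Pi.mulSingle i t) = 1) ∧ top D x ρ i m = -m},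
    fun i hi => hi.1, h1, h4, fun i hi => hi.2, fun i hi => (h3 i).elim id fun h5 => ?_⟩
  simp only [← hτ, ← map_inv, h4, ← Finset.sum_smul] at h5
  by_cases h6 : ∀ t, χ (Pi.mulSingle i t) = 1
  · exact absurd ⟨h6, by rw [h5, (sum_char_inv p χ i).1 h6, neg_one_smul]⟩ hi
  · rw [h5, (sum_char_inv p χ i).2 h6, zero_smul]

include hn h htop hτ p in
/-- In a simple module the vectors fixed by `U` form a line. -/
theorem exists_eq_smul_of_fixed [Fact p.Prime] [IsAlgClosed k] [Finite G]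
    (ρ : Representation k G M) (hc : ∀ m ≠ 0, ∀ z, ∃ a, ρ.asAlgebraHom a m = z) {m m' : M}
    (hm : ∀ u ∈ Us D x, ρ u m = m) (hm' : ∀ u ∈ Us D x, ρ u m' = m') (h0 : m ≠ 0) :
    ∃ c : k, m' = c • m := by
  have := nontrivial_of_ne m 0 h0
  obtain ⟨φ, h1, χ, J, -, h2⟩ := exists_wt hn h htop p τ hτ ρ.dual
  obtain ⟨n₀, -, -, h3⟩ := h.exists_longest_N T
  have key : ∀ z, (∀ u ∈ Us D x, ρ u z = z) → φ (ρ n₀⁻¹ z) = 0 → z = 0 := by
    intro z hz h4
    by_contra h5
    have h6 := h2.map_eq_zero (T := T) h htop τ hτ (φ := Module.Dual.eval k M (ρ n₀⁻¹ z))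
      (fun v hv ψ => by
        change ψ (ρ v⁻¹ (ρ n₀⁻¹ z)) = ψ (ρ n₀⁻¹ z)
        rw [← rep_mul, show v⁻¹ * n₀⁻¹ = n₀⁻¹ * (n₀ * v⁻¹ * n₀⁻¹) by group, rep_mul,
          hz (n₀ * v⁻¹ * n₀⁻¹) (h3.le ⟨_, inv_mem hv, rfl⟩)]) h4
    refine h1 (LinearMap.ext fun y => ?_)
    obtain ⟨a, rfl⟩ := hc z h5 y
    refine (map_asAlgebraHom_eq ρ ρ (ψ := 0) (n := z) (fun g => ?_) a).trans rfl
    have h7 : φ (ρ (g * n₀)⁻¹⁻¹ (ρ n₀⁻¹ z)) = 0 := h6 (g * n₀)⁻¹
    rwa [← rep_mul, inv_inv, mul_inv_cancel_right] at h7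
  have h4 : φ (ρ n₀⁻¹ m) ≠ 0 := fun e => h0 (key m hm e)
  refine ⟨φ (ρ n₀⁻¹ m') / φ (ρ n₀⁻¹ m), sub_eq_zero.1 (key _ (fun u hu => ?_) ?_)⟩
  · rw [map_sub, map_smul, hm u hu, hm' u hu]
  · rw [map_sub, map_smul, map_sub, map_smul, smul_eq_mul, div_mul_cancel₀ _ h4, sub_self]

include hn h htop hτ p in
/-- Simple modules with the same weight cannot be separated by the group algebra. -/
theorem not_sep_of_wt [Fact p.Prime] [Finite G] {M' : Type*} [AddCommGroup M'] [Module k M']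
    (ρ : Representation k G M) (σ : Representation k G M')
    (hc : ∀ m ≠ 0, ∀ z, ∃ a, ρ.asAlgebraHom a m = z)
    (hc' : ∀ m ≠ 0, ∀ z, ∃ a, σ.asAlgebraHom a m = z) {m : M} {m' : M'}
    {χ : (Fin D.rank → Fˣ) →* kˣ} {J : Set (Fin D.rank)} (hm : Wt x τ ρ m χ J)
    (hm' : Wt x τ σ m' χ J) (h0 : m ≠ 0) (h0' : m' ≠ 0) {a : MonoidAlgebra k G}
    (ha : ρ.asAlgebraHom a m = m) : σ.asAlgebraHom a m' ≠ 0 := by
  intro ha'
  have := nontrivial_of_ne m 0 h0
  have := nontrivial_of_ne m' 0 h0'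
  obtain ⟨φ, h1, h2⟩ := exists_fixed ρ.dual (isPGroup_Vs hn h p)
  obtain ⟨ψ, h3, h4⟩ := exists_fixed σ.dual (isPGroup_Vs hn h p)
  have h5 : ∀ v ∈ Vs D x, ∀ z, φ (ρ v z) = φ z := fun v hv z => by
    simpa [Module.Dual.transpose] using DFunLike.congr_fun (h2 _ (inv_mem hv)) z
  have h6 : ∀ v ∈ Vs D x, ∀ z, ψ (σ v z) = ψ z := fun v hv z => by
    simpa [Module.Dual.transpose] using DFunLike.congr_fun (h4 _ (inv_mem hv)) z
  have h7 : φ m ≠ 0 := fun e => h1 (LinearMap.ext fun y => by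
    obtain ⟨a, rfl⟩ := hc m h0 y
    exact map_asAlgebraHom_eq ρ ρ (ψ := 0) (n := m) (hm.map_eq_zero (T := T) h htop τ hτ h5 e) a)
  have h8 : ψ m' ≠ 0 := fun e => h3 (LinearMap.ext fun y => by
    obtain ⟨a, rfl⟩ := hc' m' h0' y
    exact map_asAlgebraHom_eq σ σ (ψ := 0) (n := m') (hm'.map_eq_zero (T := T) h htop τ hτ h6 e) a)
  have ht : ∀ i, top D x (ρ.prod σ) i (m, m') = (top D x ρ i m, top D x σ i m') := fun i => by
    simp [top, Representation.prod, ← prod_mk_sum]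
  have h9 : Wt x τ (ρ.prod σ) (m, m') χ J :=
    ⟨fun u hu => Prod.ext (hm.fix u hu) (hm'.fix u hu), fun c => Prod.ext (hm.eig c) (hm'.eig c),
      fun i hi => by rw [ht, hm.top1 i hi, hm'.top1 i hi]; rfl,
      fun i hi => by rw [ht, hm.top0 i hi, hm'.top0 i hi]; rfl⟩
  have h10 := h9.map_eq_zero (T := T) h htop τ hτ (φ := LinearMap.coprod (ψ m' • φ) (-φ m • ψ))
    (fun v hv z => by simp [Representation.prod, h5 v hv, h6 v hv]) (by simp [mul_comm])
  have h11 := map_asAlgebraHom_eq ρ σ (φ := ψ m' • φ) (ψ := φ m • ψ) (m := m) (n := m')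
    (fun g => by simpa [Representation.prod, ← sub_eq_add_neg, sub_eq_zero] using h10 g) a
  rw [ha, ha', map_zero] at h11
  exact mul_ne_zero h8 h7 h11

end Cfsg.Agent.St
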