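import Mathlib
import Cfsg.Agent.St.Richen
import Cfsg.Agent.Block.IBr
import Cfsg.Agent.Block.ModExists

/-!
The simple modules in the natural characteristic of a finite group with root elements are
parametrised by the admissible weights; the number of `p`-regular classes.
-/

set_option autoImplicit false
set_option linter.unusedSectionVars false

namespace Cfsg.Agent.St

open Cfsg Cfsg.Lie Cfsg.Agent.Chev Cfsg.Agent.Block Cfsg.Agent.Char

/-- The number of irreducible Brauer characters is the number of `p`-regular classes. -/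
theorem card_IBr {G : Type*} [Group G] [Finite G] {p : ℕ} {M : Ideal AlgInt}
    (hM : IsPModular p M) : Nat.card (IBr M G) =
      Nat.card {c : ConjClasses G // ∃ g : G, ConjClasses.mk g = c ∧ ¬ p ∣ orderOf g} := by
  classical
  let R := {c : ConjClasses G // ∃ g : G, ConjClasses.mk g = c ∧ ¬ p ∣ orderOf g}
  have := Fintype.ofFinite R
  choose r h1 h2 using fun c : R => c.2
  let L : (IBr M G → ℂ) →ₗ[ℂ] (R → ℂ) :=
    { toFun := fun a c => ∑ i, a i * brauer i (r c)
      map_add' := fun a b => by ext c; simp [add_mul, Finset.sum_add_distrib]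
      map_smul' := fun a b => by ext c; simp [Finset.mul_sum, mul_assoc] }
  have hL : Function.Bijective L := by
    refine ⟨(injective_iff_map_eq_zero L).2 fun a ha => eq_zero_of_sum_brauer hM fun g hg => ?_,
      fun θ => ?_⟩
    · rw [← show L a ⟨_, g, rfl, hg⟩ = 0 from congrFun ha _]
      exact Finset.sum_congr rfl fun i _ => congrArg _ ((isClassFunction_brauer i).eq_of_isConj
        (ConjClasses.mk_eq_mk_iff_isConj.1 (h1 ⟨_, g, rfl, hg⟩).symm))
    · let θ' : G → ℂ := fun g => Function.extend Subtype.val θ 0 (ConjClasses.mk g)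
      have h3 : IsClassFunction G θ' := isClassFunction_iff_isConj.2 fun a b e => by
        simp only [θ', ConjClasses.mk_eq_mk_iff_isConj.2 e]
      refine ⟨fun i => ev θ' (pimIdem i), funext fun c => ?_⟩
      refine (eq_sum_brauer hM h3 (h2 c)).symm.trans ?_
      simp only [θ', h1]
      exact Subtype.val_injective.extend_apply _ _ _
  have := (LinearEquiv.ofBijective L hL).finrank_eq
  rwa [Module.finrank_fintype_fun_eq_card, Module.finrank_fintype_fun_eq_card,
    ← Nat.card_eq_fintype_card, ← Nat.card_eq_fintype_card] at this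

section Wed

variable {k G : Type*} [Field k] [Group G] (W : Wed k (MonoidAlgebra k G))

/-- The column module of a Wedderburn component. -/
noncomputable def wrep (i : Fin W.n) : Representation k G (Fin (W.d i) → k) :=
  ((Matrix.toLinAlgEquiv'.toAlgHom.comp ((Pi.evalAlgHom _ _ i).comp W.π) :
    MonoidAlgebra k G →ₐ[k] _) : MonoidAlgebra k G →* _).comp (MonoidAlgebra.of k G)

theorem wrep_asAlgebraHom (i : Fin W.n) (a : MonoidAlgebra k G) (v : Fin (W.d i) → k) :
    (wrep W i).asAlgebraHom a v = (W.π a i).mulVec v := by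
  induction a using MonoidAlgebra.induction_linear with
  | zero => simp
  | add a b ha hb => simp [ha, hb, Matrix.add_mulVec]
  | single g c =>
    rw [Representation.asAlgebraHom_single, show MonoidAlgebra.single g c =
      c • MonoidAlgebra.single g (1 : k) by simp, map_smul, Pi.smul_apply, Matrix.smul_mulVec]
    rfl

theorem exists_mulVec_eq {n : Type*} [Fintype n] {m : n → k} (hm : m ≠ 0) (z : n → k) :
    ∃ X : Matrix n n k, X.mulVec m = z := by
  classical
  obtain ⟨j, hj⟩ := Function.ne_iff.1 hm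
  refine ⟨Matrix.of fun a b => if b = j then z a / m j else 0, funext fun a => ?_⟩
  simp [Matrix.mulVec, dotProduct, div_mul_cancel₀ _ (show m j ≠ 0 from hj)]

theorem wrep_cyclic (i : Fin W.n) (m : Fin (W.d i) → k) (hm : m ≠ 0) (z : Fin (W.d i) → k) :
    ∃ a, (wrep W i).asAlgebraHom a m = z := by
  obtain ⟨X, hX⟩ := exists_mulVec_eq hm z
  obtain ⟨a, ha⟩ := W.surj (Pi.single i X)
  exact ⟨a, by rw [wrep_asAlgebraHom, ha, Pi.single_eq_same, hX]⟩

theorem exists_wrep_vec {M : Type*} [AddCommGroup M] [Module k M] (ρ : Representation k G M)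
    {y : M} (hy : y ≠ 0) : ∃ i, ∃ v : Fin (W.d i) → k, v ≠ 0 ∧ ∀ a b,
      ρ.asAlgebraHom a y = ρ.asAlgebraHom b y →
        (wrep W i).asAlgebraHom a v = (wrep W i).asAlgebraHom b v := by
  let I : Ideal (MonoidAlgebra k G) :=
    { carrier := {a | ρ.asAlgebraHom a y = 0}
      zero_mem' := by simp
      add_mem' := fun {a b} ha hb => by
        simp only [Set.mem_ofPred_eq, map_add, LinearMap.add_apply] at *
        rw [ha, hb, add_zero]
      smul_mem' := fun c a ha => by
        simp only [Set.mem_ofPred_eq, smul_eq_mul, map_mul, Module.End.mul_apply] at *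
        rw [ha, map_zero] }
  obtain ⟨P, hP, hle⟩ := I.exists_le_maximal ((Ideal.ne_top_iff_one I).2 fun e => hy (by
    simpa [I] using e))
  have := isSimpleModule_iff_isCoatom.2 (Ideal.isMaximal_def.1 hP)
  obtain ⟨i, f, hf⟩ := W.exists_equiv_of_isSimpleModule (MonoidAlgebra k G ⧸ P)
  refine ⟨i, f.symm (Submodule.Quotient.mk 1), fun e => ?_, fun a b e => f.injective ?_⟩
  · rw [LinearEquiv.map_eq_zero_iff, Submodule.Quotient.mk_eq_zero] at e
    exact (Ideal.ne_top_iff_one P).1 hP.ne_top e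
  · rw [wrep_asAlgebraHom, wrep_asAlgebraHom, hf, hf, f.apply_symm_apply,
      ← Submodule.Quotient.mk_smul, ← Submodule.Quotient.mk_smul, Submodule.Quotient.eq]
    refine hle ?_
    simpa [I, sub_eq_zero] using e

end Wed

variable {F : Type*} [Field F] {G : Type*} [Group G] {D : ChevalleyDatum} {x : ℕ → F → G}
  {T : RootTable D} (hn : IsND x T) (h : IsSt D x) (htop : Gs D x = ⊤)

section Ext

variable {K : Set (Fin D.rank)} {C : Subgroup G} (hC : C ≤ Hs D x)
  (hC1 : ∀ i ∈ K, ∀ t : F, t ≠ 0 → hh D x (D.simple i) t ∈ C)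

include T h in
theorem nn_conj_eq (i : Fin D.rank) {a : G} (ha : a ∈ Hs D x) : ∃ t : F, t ≠ 0 ∧
    nn D x (D.simple i) 1 * a * (nn D x (D.simple i) 1)⁻¹ = a * hh D x (D.simple i) t := by
  obtain ⟨c, hc, -, h1⟩ := (h.acts_of_mem_Hs T (inv_mem ha)).conj_nn (T.simple_lt i)
  refine ⟨c, hc, ?_⟩
  have h2 := h1 1
  rw [T.act_one, mul_one, h.toIsSt0.nn_eq T (T.simple_lt i) c] at h2
  rw [← mul_inv_cancel_right (hh D x _ c) (nn D x (D.simple i) 1), ← h2]
  group

include T h hC hC1 in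
theorem nn_conj_mem {i : Fin D.rank} (hi : i ∈ K) {a : G} (ha : a ∈ C) :
    nn D x (D.simple i) 1 * a * (nn D x (D.simple i) 1)⁻¹ ∈ C := by
  obtain ⟨t, ht, e⟩ := nn_conj_eq (T := T) h i (hC ha)
  exact e ▸ mul_mem ha (hC1 i hi t ht)

include T h hC1 in
theorem nn_sq_mem {i : Fin D.rank} (hi : i ∈ K) :
    nn D x (D.simple i) 1 * nn D x (D.simple i) 1 ∈ C := by
  rw [h.toIsSt0.nn_mul_nn T (T.simple_lt i)]
  exact inv_mem (hC1 i hi _ (by simp))

include T h hC hC1 in
theorem exists_nw_of_mem {g : G}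
    (hg : g ∈ C ⊔ Subgroup.closure ((fun i : Fin D.rank => nn D x (D.simple i) 1) '' K)) :
    ∃ c ∈ C, ∃ l : List (Fin D.rank), (∀ i ∈ l, i ∈ K) ∧ g = c * nw D x l := by
  rw [← Subgroup.closure_eq C, ← Subgroup.closure_union] at hg
  induction hg using Subgroup.closure_induction_left with
  | one => exact ⟨1, one_mem _, [], by simp, by simp⟩
  | mul_left a ha b _ ih =>
    obtain ⟨k, hk, l, hl, rfl⟩ := ih
    rcases ha with ha | ⟨i, hi, rfl⟩
    · exact ⟨a * k, mul_mem ha hk, l, hl, by rw [mul_assoc]⟩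
    · refine ⟨_, nn_conj_mem (T := T) h hC hC1 hi hk, i :: l, ?_, by simp [mul_assoc]⟩
      simpa [hi] using hl
  | inv_mul_cancel a ha b _ ih =>
    obtain ⟨k, hk, l, hl, rfl⟩ := ih
    rcases ha with ha | ⟨i, hi, rfl⟩
    · exact ⟨a⁻¹ * k, mul_mem (inv_mem ha) hk, l, hl, by rw [mul_assoc]⟩
    · refine ⟨_, mul_mem (inv_mem (nn_sq_mem (T := T) h hC1 hi))
        (nn_conj_mem (T := T) h hC hC1 hi hk), i :: l, ?_, by simp [mul_assoc]⟩
      simpa [hi] using hl

include h hC hC1 in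
theorem nw_exchange_mem (l : List (Fin D.rank)) (hK : ∀ j ∈ l, j ∈ K) (i : Fin D.rank)
    (hl : T.act (T.cs.wordProd l) (D.simple i) < T.N) :
    ∃ c ∈ C, ∃ l' : List (Fin D.rank), (∀ j ∈ l', j ∈ K) ∧ l'.length < l.length ∧
      nw D x l * nn D x (D.simple i) 1 = c * nw D x l' := by
  have h0 := h.toIsSt0
  induction l with
  | nil =>
    rw [T.cs.wordProd_nil, T.act_one] at hl
    exact absurd (T.N_le_simple i) (by omega)
  | cons j l ih =>
    rw [List.forall_mem_cons] at hK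
    by_cases hl' : T.act (T.cs.wordProd l) (D.simple i) < T.N
    · obtain ⟨k, hk, l', h3, h1, h2⟩ := ih hK.2 hl'
      refine ⟨_, nn_conj_mem (T := T) h hC hC1 hK.1 hk, j :: l',
        List.forall_mem_cons.2 ⟨hK.1, h3⟩, by simpa using h1, ?_⟩
      rw [nw_cons, nw_cons, mul_assoc, h2]
      group
    · have hlt := T.act_lt (T.cs.wordProd l) (T.simple_lt i)
      rw [T.cs.wordProd_cons, T.act_mul, T.act_simple j hlt] at hl
      have e : T.act (T.cs.wordProd l) (D.simple i) = D.simple j := by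
        by_contra hne
        have := T.refl_pos j _ (by omega) hlt hne
        omega
      obtain ⟨c, hc, -, h3⟩ := (h.acts_nw T l).conj_nn (T.simple_lt i)
      have h4 := h3 1
      rw [e, mul_one, h0.nn_eq T (T.simple_lt j) c] at h4
      refine ⟨_, mul_mem (nn_conj_mem (T := T) h hC hC1 hK.1 (hC1 j hK.1 c hc))
        (nn_sq_mem (T := T) h hC1 hK.1), l, hK.2, by simp, ?_⟩
      rw [nw_cons, mul_assoc, ← mul_inv_cancel_right (hh D x (D.simple j) c)
        (nn D x (D.simple j) 1), ← h4]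
      group

include hn h hC hC1 in
theorem nw_mem_of_acts (l : List (Fin D.rank)) (hK : ∀ j ∈ l, j ∈ K)
    (h1 : Acts x T (nw D x l) 1) : nw D x l ∈ C := by
  induction hm : l.length using Nat.strong_induction_on generalizing l with
  | _ m ih =>
    rcases List.eq_nil_or_concat l with rfl | ⟨l₀, i, rfl⟩
    · exact one_mem _
    · have hl := hn.acts_unique h.toIsSt0 (h.acts_nw T _) h1
      rw [T.cs.wordProd_concat, mul_eq_one_iff_eq_inv, T.cs.inv_simple] at hl
      obtain ⟨k, hk, l', h0, h2, h3⟩ := nw_exchange_mem (T := T) h hC hC1 l₀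
        (fun j hj => hK j (by simp [hj])) i (by
          rw [hl, T.act_simple i (T.simple_lt i), RootTable.refl_simple]
          exact T.neg_lt_N (T.N_le_simple i) (T.simple_lt i))
      have h4 : nw D x (l₀.concat i) = k * nw D x l' := by rw [← h3]; simp
      rw [h4] at h1 ⊢
      refine mul_mem hk (ih l'.length (by rw [← hm]; simp; omega) l' h0 ?_ rfl)
      simpa using (h.acts_of_mem_Hs T (hC hk)).inv.mul h1

include hn h hC hC1 in
theorem mem_of_mem_sup_of_mem_Hs {g : G}
    (hg : g ∈ C ⊔ Subgroup.closure ((fun i : Fin D.rank => nn D x (D.simple i) 1) '' K))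
    (hH : g ∈ Hs D x) : g ∈ C := by
  obtain ⟨c, hc, l, hl, rfl⟩ := exists_nw_of_mem (T := T) h hC hC1 hg
  exact mul_mem hc (nw_mem_of_acts hn h hC hC1 l hl
    (h.acts_of_mem_Hs T ((mul_mem_cancel_left (hC hc)).1 hH)))

end Ext

variable [Fintype F] [DecidableEq F] {k : Type*} [Field k] (p : ℕ) [CharP F p] [CharP k p]
  (τ : (Fin D.rank → Fˣ) →* G)
  (hτ : ∀ (i : Fin D.rank) (c : Fˣ), τ (Pi.mulSingle i c) = hh D x (D.simple i) c)
  (hinj : Function.Injective τ)

include hn h htop hτ hinj p in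
/-- Every admissible weight occurs. -/
theorem exists_fun_wt {χ : (Fin D.rank → Fˣ) →* kˣ} {J : Set (Fin D.rank)} (hJ : Adm χ J) :
    ∃ y : G → k, y ≠ 0 ∧ Wt x τ (lam k G) y χ J := by
  classical
  let K : Set (Fin D.rank) := {i | (∀ t, χ (Pi.mulSingle i t) = 1) ∧ i ∉ J}
  have hτ' : ∀ c, τ c ∈ Hs D x := fun c => range_tau (T := T) h τ hτ ▸ ⟨c, rfl⟩
  have hC : χ.ker.map τ ≤ Hs D x := by rintro _ ⟨c, -, rfl⟩; exact hτ' c
  have hC1 : ∀ i ∈ K, ∀ t : F, t ≠ 0 → hh D x (D.simple i) t ∈ χ.ker.map τ :=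
    fun i hi t ht => ⟨_, hi.1 (Units.mk0 t ht), hτ i _⟩
  set Z := χ.ker.map τ ⊔ Subgroup.closure ((fun i : Fin D.rank => nn D x (D.simple i) 1) '' K)
    with hZ
  let f : G → k := fun g => if h : ∃ c, (τ c)⁻¹ * g ∈ Z then ((χ h.choose)⁻¹ : kˣ) else 0
  have f1 : ∀ g c, (τ c)⁻¹ * g ∈ Z → f g = ((χ c)⁻¹ : kˣ) := by
    intro g c hc
    have h1 : ∃ c, (τ c)⁻¹ * g ∈ Z := ⟨c, hc⟩
    have h2 := mul_mem hc (inv_mem h1.choose_spec)
    rw [mul_inv_rev, inv_inv, mul_assoc, mul_inv_cancel_left, ← map_inv, ← map_mul] at h2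
    obtain ⟨c', h3, h4⟩ := mem_of_mem_sup_of_mem_Hs hn h hC hC1 h2 (hτ' _)
    rw [hinj h4, SetLike.mem_coe, MonoidHom.mem_ker, map_mul, map_inv, inv_mul_eq_one] at h3
    simp only [f, dif_pos h1, h3]
  have f0 : ∀ g, (∀ c, (τ c)⁻¹ * g ∉ Z) → f g = 0 := fun g hg => dif_neg (not_exists.2 hg)
  have f2 : ∀ a g, f ((τ a)⁻¹ * g) = χ a * f g := by
    intro a g
    by_cases hg : ∃ c, (τ c)⁻¹ * g ∈ Z
    · obtain ⟨c, hc⟩ := hg
      rw [f1 g c hc, f1 _ (a⁻¹ * c) (by simpa [mul_assoc] using hc)]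
      simp [mul_comm]
    · rw [f0 g (not_exists.1 hg), mul_zero, f0 _ fun c hc => hg ⟨a * c, by
        simpa [mul_assoc] using hc⟩]
  have f3 : ∀ i ∈ K, ∀ g, f ((nn D x (D.simple i) 1)⁻¹ * g) = f g := by
    intro i hi g
    have hi' : nn D x (D.simple i) 1 ∈ Z :=
      Subgroup.mem_sup_right (Subgroup.subset_closure ⟨i, hi, rfl⟩)
    have key : ∀ c, (τ c)⁻¹ * ((nn D x (D.simple i) 1)⁻¹ * g) ∈ Z ↔ (τ c)⁻¹ * g ∈ Z := by
      intro c
      obtain ⟨t, ht, e⟩ := nn_conj_eq (T := T) h i (hτ' c)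
      rw [← mul_mem_cancel_left hi', ← mul_mem_cancel_left
        (Subgroup.mem_sup_left (hC1 i hi t ht) : _ ∈ Z),
        show hh D x (D.simple i) t = (τ c)⁻¹ * (τ c * hh D x (D.simple i) t) by group, ← e]
      congr! 1
      group
    by_cases hg : ∃ c, (τ c)⁻¹ * g ∈ Z
    · obtain ⟨c, hc⟩ := hg
      rw [f1 g c hc, f1 _ c ((key c).2 hc)]
    · rw [f0 g (not_exists.1 hg), f0 _ fun c hc => hg ⟨c, (key c).1 hc⟩]
  have f4 : ∀ i ∉ K, ∀ n ∈ Ns D x, ∀ w, Acts x T n w → T.act w⁻¹ (D.simple i) < T.N →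
      f n = 0 := by
    intro i hi n _ w hw h1
    refine f0 n fun c hc => hi ?_
    obtain ⟨a, ha, l, hl, e⟩ := exists_nw_of_mem (T := T) h hC hC1 hc
    have h2 := (h.acts_of_mem_Hs T (hτ' c)).mul ((h.acts_of_mem_Hs T (hC ha)).mul (h.acts_nw T l))
    rw [← e, mul_inv_cancel_left, one_mul, one_mul] at h2
    have h3 := (stTits hn h htop).cox
    rw [stTits_s] at h3
    refine h3.mem_of_RD (inv_mem ?_) ((RD_iff_act _ i).2 h1)
    rw [hn.acts_unique h.toIsSt0 hw h2]
    exact wprod_mem_WJ hl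
  have f5 : ∀ a, lam k G (τ a) (yf T h htop f) = (χ a : k) • yf T h htop f := fun a => by
    rw [lam_yf_H hn h htop f (hτ' a)]
    simp only [f2]
    rfl
  have f6 : ∀ i ∉ K, top D x (lam k G) i (yf T h htop f) =
      (∑ t : Fˣ, (χ (Pi.mulSingle i t)⁻¹ : k)) • yf T h htop f := fun i hi => by
    rw [top_yf_pos hn h htop p (f4 i hi), Finset.sum_smul]
    simp only [← hτ, ← map_inv, f5]
  refine ⟨yf T h htop f, fun e => ?_, fun u hu => lam_yf_U hn h htop f hu, f5, fun i hi => ?_,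
    fun i hi => ?_⟩
  · have h1 := congrFun e 1
    rw [yf, bk_of_mem hn h htop (one_mem _), f1 1 1 (by simp)] at h1
    simp at h1
  · rw [f6 i fun h1 => h1.2 hi, (sum_char_inv p χ i).1 (hJ i hi), neg_one_smul]
  · by_cases h1 : ∀ t, χ (Pi.mulSingle i t) = 1
    · refine top_yf_zero hn h htop p (f3 i ⟨h1, hi⟩) fun t g => ?_
      simpa [h1, hτ] using f2 (Pi.mulSingle i t)⁻¹ g
    · rw [f6 i fun h2 => h1 h2.1, (sum_char_inv p χ i).2 h1, zero_smul]

theorem Wt.transfer {M M' : Type*} [AddCommGroup M] [Module k M] [AddCommGroup M'] [Module k M']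
    {ρ : Representation k G M} {σ : Representation k G M'} {m : M} {m' : M'}
    {χ : (Fin D.rank → Fˣ) →* kˣ} {J : Set (Fin D.rank)} (hm : Wt x τ ρ m χ J)
    (h1 : ∀ a b, ρ.asAlgebraHom a m = ρ.asAlgebraHom b m →
      σ.asAlgebraHom a m' = σ.asAlgebraHom b m') : Wt x τ σ m' χ J := by
  refine ⟨fun u hu => ?_, fun c => ?_, fun i hi => ?_, fun i hi => ?_⟩
  · simpa using h1 (.single u 1) 1 (by simpa using hm.fix u hu)
  · simpa using h1 (.single (τ c) 1) (.single 1 (χ c)) (by simpa using hm.eig c)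
  · simpa [top] using h1 (∑ t : F, .single (x (D.simple i) t * nn D x (D.simple i) 1) 1) (-1)
      (by simpa [top] using hm.top1 i hi)
  · simpa [top] using h1 (∑ t : F, .single (x (D.simple i) t * nn D x (D.simple i) 1) 1) 0
      (by simpa [top] using hm.top0 i hi)

include p in
theorem card_adm [IsAlgClosed k] :
    Nat.card {ω : ((Fin D.rank → Fˣ) →* kˣ) × Set (Fin D.rank) // Adm ω.1 ω.2} =
      Fintype.card F ^ D.rank := by
  classical
  have h1 : (Nat.card Fˣ : k) ≠ 0 := by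
    rw [Nat.card_eq_fintype_card, card_units_cast p]
    simp
  have := enough_of_card Fˣ h1
  have hc := CommGroup.card_monoidHom_of_hasEnoughRootsOfUnity Fˣ k
  have : Finite (Fˣ →* kˣ) := Nat.finite_of_card_ne_zero (hc ▸ Nat.card_pos.ne')
  rw [Nat.card_eq_of_bijective (β := Fin D.rank → Option (Fˣ →* kˣ))
    (fun ω i => if i ∈ ω.1.2 then none else some (ω.1.1.comp (MonoidHom.mulSingle (fun _ => Fˣ) i)))
    ⟨?_, ?_⟩,
    Nat.card_fun, Finite.card_option, hc, Nat.card_units, Nat.card_fin,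
    Nat.sub_add_cancel Nat.card_pos, Nat.card_eq_fintype_card]
  · rintro ⟨⟨χ, J⟩, h2⟩ ⟨⟨χ', J'⟩, h3⟩ e
    have h4 := congrFun e
    obtain rfl : J = J' := Set.ext fun i => by
      have := h4 i
      dsimp only at this
      split_ifs at this <;> simp_all
    congr 2
    refine MonoidHom.pi_ext fun i t => ?_
    by_cases hi : i ∈ J
    · exact (h2 i hi t).trans (h3 i hi t).symm
    · have := h4 i
      simp only [if_neg hi, Option.some.injEq] at this
      exact DFunLike.congr_fun this t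
  · intro o
    have h2 : ∀ i t, (∏ j, ((o j).getD 1).comp (Pi.evalMonoidHom (fun _ => Fˣ) j))
        (Pi.mulSingle i t) = (o i).getD 1 t := by
      intro i t
      rw [MonoidHom.finsetProd_apply, Finset.prod_eq_single i]
      · simp
      · intro j _ hj
        simp [Pi.mulSingle_eq_of_ne hj]
      · simp
    refine ⟨⟨⟨∏ j, ((o j).getD 1).comp (Pi.evalMonoidHom (fun _ => Fˣ) j), {i | o i = none}⟩,
      fun i hi t => by rw [h2, show o i = none from hi]; rfl⟩, funext fun i => ?_⟩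
    rcases hi : o i with _ | φ
    · exact if_pos hi
    · refine (if_neg (by simp [hi])).trans ?_
      congr 1
      ext t
      rw [MonoidHom.comp_apply, MonoidHom.mulSingle_apply, h2, hi]
      rfl

include hn h htop hτ hinj p in
theorem wed_n_eq [Fact p.Prime] [IsAlgClosed k] [Finite G] (W : Wed k (MonoidAlgebra k G)) :
    W.n = Fintype.card F ^ D.rank := by
  have := W.nz
  choose m h0 χ J h1 h2 using fun i => exists_wt hn h htop p τ hτ (wrep W i)
  rw [← card_adm (k := k) p, ← Nat.card_eq_of_bijective (fun i => ⟨(χ i, J i), h1 i⟩) ⟨?_, ?_⟩,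
    Nat.card_fin]
  · intro i j e
    by_contra hij
    simp only [Subtype.mk.injEq, Prod.mk.injEq] at e
    obtain ⟨a, ha⟩ := W.surj (Pi.single i 1)
    refine not_sep_of_wt hn h htop p τ hτ (wrep W i) (wrep W j) (wrep_cyclic W i) (wrep_cyclic W j)
      (h2 i) (e.1 ▸ e.2 ▸ h2 j) (h0 i) (h0 j) (a := a) ?_ ?_
    · rw [wrep_asAlgebraHom, ha, Pi.single_eq_same, Matrix.one_mulVec]
    · rw [wrep_asAlgebraHom, ha, Pi.single_eq_of_ne' hij, Matrix.zero_mulVec]
  · rintro ⟨⟨ψ, K⟩, h3⟩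
    obtain ⟨y, h4, h5⟩ := exists_fun_wt hn h htop p τ hτ hinj h3
    obtain ⟨i, v, h6, h7⟩ := exists_wrep_vec W (lam k G) h4
    have h8 := h5.transfer τ h7
    obtain ⟨c, rfl⟩ := exists_eq_smul_of_fixed hn h htop p τ hτ (wrep W i) (wrep_cyclic W i)
      (h2 i).fix h8.fix (h0 i)
    obtain ⟨h9, h10⟩ := ((h2 i).smul τ c).unique τ h8 h6
    exact ⟨i, Subtype.ext (Prod.ext h9 h10)⟩

include hn h htop hτ hinj p in
/-- Steinberg's count of the `p`-regular classes. -/
theorem card_pRegular_classes [hp : Fact p.Prime] [Finite G] :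
    Nat.card {c : ConjClasses G // ∃ g : G, ConjClasses.mk g = c ∧ ¬ p ∣ orderOf g} =
      Fintype.card F ^ D.rank := by
  obtain ⟨M, hM⟩ := exists_isPModular hp.out
  have := charP_resField hM
  rw [← card_IBr hM, ← wed_n_eq hn h htop p τ hτ hinj (wed M G)]
  exact Nat.card_fin _

/-- The count for a Chevalley group whose torus map is injective. -/
theorem card_pRegular_classes_chev [Good D] (T : RootTable D) [Fact p.Prime]
    (h1 : Nat.card {c : Fin D.rank → Fˣ // ∀ j, ∏ i, c i ^ cm D i j = 1} = 1) :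
    Nat.card {c : ConjClasses (D.group F) // ∃ g : D.group F, ConjClasses.mk g = c ∧
      ¬ p ∣ orderOf g} = Fintype.card F ^ D.rank := by
  have h2 : ∀ c, tor D F c ∈ D.group F := fun c =>
    group_eq (D := D) (F := F) ▸ T.Hs_le_Gs (mem_Hs_iff.2 ⟨c, rfl⟩)
  refine card_pRegular_classes (isND_xC T) isSt_xC Gs_xC p ((tor D F).codRestrict _ h2)
    (fun i c => Subtype.ext ?_) ((injective_iff_map_eq_one _).2 fun c hc => ?_)
  · rw [coe_hh_xC, hh_simple_eq_tor]
    rfl
  · have := (Nat.card_eq_one_iff_unique.1 h1).1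
    exact congrArg Subtype.val (Subsingleton.elim
      (⟨c, tor_eq_one_iff.1 (congrArg Subtype.val hc)⟩ :
        {c : Fin D.rank → Fˣ // ∀ j, ∏ i, c i ^ cm D i j = 1}) ⟨1, by simp⟩)

end Cfsg.Agent.St
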